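import Cfsg.Agent.Lib.Elusive.Atoms
import Cfsg.Agent.Lib.ElusL.Bridge
import Cfsg.Agent.Lib.ElusL.Dec1
import Cfsg.Prelude.Def_GeometricClasses

/-!
# Decompositions from bases; independence; counting decompositions
-/

set_option autoImplicit false
set_option linter.unusedSectionVars false
set_option linter.style.haveILetI false

open Module
open scoped MatrixGroups

namespace Cfsg.Agent.Lib.ElusDec.Basic

open Cfsg.Geo

variable {F : Type*} [Field F] {V : Type*} [AddCommGroup V] [Module F V]

/-- Independent families: a vanishing sum has vanishing terms. -/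
theorem indep_sum_eq_zero {ι : Type*} [Fintype ι] {P : ι → Submodule F V} (hP : iSupIndep P)
    (x : ι → V) (hx : ∀ i, x i ∈ P i) (h : ∑ i, x i = 0) (i : ι) : x i = 0 := by
  classical
  have h1 : x i = -∑ k ∈ Finset.univ.erase i, x k := by
    rw [eq_neg_iff_add_eq_zero, Finset.add_sum_erase _ _ (Finset.mem_univ i)]
    exact h
  have h2 : x i ∈ ⨆ (k : ι) (_ : k ≠ i), P k := by
    rw [h1]
    refine Submodule.neg_mem _ (Submodule.sum_mem _ fun k hk => ?_)
    exact Submodule.mem_iSup_of_mem k (Submodule.mem_iSup_of_mem (Finset.ne_of_mem_erase hk) (hx k))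
  exact Submodule.disjoint_def.mp (iSupIndep_def.mp hP i) _ (hx i) h2

/-- A decomposition from a basis permuted up to scalars. -/
theorem isMDecomp_of_basis {n t a : ℕ} {I : Type} [Fintype I] (b : Basis I F (Fin n → F))
    (τ : I → I) (g : (Fin n → F) →ₗ[F] (Fin n → F)) (hg : Function.Injective g)
    (hmap : ∀ x, ∃ l : F, l ≠ 0 ∧ g (b x) = l • b (τ x)) (e : I ≃ Fin t × Fin a)
    (σ : Equiv.Perm (Fin t)) (he : ∀ x, (e (τ x)).1 = σ (e x).1) (ht : 2 ≤ t) (ha : 0 < a) :
    ∃ D : Fin t → Submodule F (Fin n → F), IsMDecomposition a D ∧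
      ∀ j, (D j).map g = D (σ j) := by
  classical
  let P : I → Submodule F (Fin n → F) := fun x => Submodule.span F {b x}
  have hind : iSupIndep P := b.linearIndependent.iSupIndep_span_singleton
  have htop : iSup P = ⊤ := by
    rw [← b.span_eq, Set.range_eq_iUnion, Submodule.span_iUnion]
  have hdim : ∀ x, finrank F (P x) = 1 := fun x => finrank_span_singleton (b.ne_zero x)
  have hm : ∀ x, (P x).map g = P (τ x) := by
    intro x
    obtain ⟨l, hl, h⟩ := hmap x
    change (Submodule.span F {b x}).map g = Submodule.span F {b (τ x)}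
    rw [Submodule.map_span, Set.image_singleton, h]
    exact Submodule.span_singleton_smul_eq (IsUnit.mk0 l hl) _
  obtain ⟨h1, h2, h3, h4⟩ := Cfsg.Agent.Lib.Elusive.Atoms.decomposition_of_atoms τ P 1 hind htop hdim
    g hg hm e σ he
  refine ⟨fun j => ⨆ m : Fin a, P (e.symm (j, m)), ⟨ht, ha, ?_, h1, h2⟩, h4⟩
  intro j
  rw [h3, mul_one]

section Count

variable {n t a : ℕ}

/-- The image of a decomposition is a decomposition. -/
theorem map_isMDecomp (φ : (Fin n → F) ≃ₗ[F] (Fin n → F)) {D : Fin t → Submodule F (Fin n → F)}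
    (hD : IsMDecomposition a D) : IsMDecomposition a (fun i => (D i).map φ.toLinearMap) := by
  refine ⟨hD.two_le, hD.pos, fun i => ?_, ?_, ?_⟩
  · rw [LinearEquiv.finrank_map_eq]
    exact hD.finrank_eq i
  · exact hD.indep.map_orderIso (Submodule.orderIsoMapComap φ)
  · have h1 : (⨆ i, (D i).map φ.toLinearMap) = (⨆ i, D i).map φ.toLinearMap := by
      rw [Submodule.map_iSup]
    rw [h1, hD.iSup_eq_top, Submodule.map_top, LinearEquiv.range]

/-- Two decompositions are conjugate. -/
theorem exists_equiv_of_decomp {D D' : Fin t → Submodule F (Fin n → F)}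
    (hD : IsMDecomposition a D) (hD' : IsMDecomposition a D') :
    ∃ φ : (Fin n → F) ≃ₗ[F] (Fin n → F), ∀ i, (D i).map φ.toLinearMap = D' i := by
  classical
  have hint := DirectSum.isInternal_submodule_of_iSupIndep_of_iSup_eq_top hD.indep hD.iSup_eq_top
  have hint' := DirectSum.isInternal_submodule_of_iSupIndep_of_iSup_eq_top hD'.indep hD'.iSup_eq_top
  let bs : ∀ i, Basis (Fin a) F (D i) := fun i => finBasisOfFinrankEq F (D i) (hD.finrank_eq i)
  let bs' : ∀ i, Basis (Fin a) F (D' i) := fun i => finBasisOfFinrankEq F (D' i) (hD'.finrank_eq i)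
  let B := hint.collectedBasis bs
  let B' := hint'.collectedBasis bs'
  let φ : (Fin n → F) ≃ₗ[F] (Fin n → F) := B.equiv B' (Equiv.refl _)
  refine ⟨φ, fun i => ?_⟩
  apply Submodule.eq_of_le_of_finrank_eq
  · rintro _ ⟨v, hv, rfl⟩
    have h2 : v = ∑ m, (bs i).repr ⟨v, hv⟩ m • ((bs i m : D i) : Fin n → F) := by
      have h0 := congrArg Subtype.val ((bs i).sum_repr ⟨v, hv⟩)
      rw [Submodule.coe_sum] at h0
      simpa only [Submodule.coe_smul] using h0.symm
    rw [h2, map_sum]
    refine Submodule.sum_mem _ fun m _ => ?_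
    rw [map_smul]
    refine Submodule.smul_mem _ _ ?_
    have h3 : ((bs i m : D i) : Fin n → F) = B ⟨i, m⟩ := by
      simp only [B]
      rw [DirectSum.IsInternal.collectedBasis_coe]
    have h4 : φ.toLinearMap (B ⟨i, m⟩) = B' ⟨i, m⟩ := by
      simp [φ]
    rw [h3, h4]
    simp only [B']
    rw [DirectSum.IsInternal.collectedBasis_coe]
    exact (bs' i m).2
  · rw [LinearEquiv.finrank_map_eq, hD.finrank_eq, hD'.finrank_eq]

/-- The group element attached to a linear equivalence. -/
noncomputable def glOf (φ : (Fin n → F) ≃ₗ[F] (Fin n → F)) : GL (Fin n) F :=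
  ⟨LinearMap.toMatrix' φ.toLinearMap, LinearMap.toMatrix' φ.symm.toLinearMap,
    by rw [← LinearMap.toMatrix'_comp]; simp, by rw [← LinearMap.toMatrix'_comp]; simp⟩

theorem toLin_glOf (φ : (Fin n → F) ≃ₗ[F] (Fin n → F)) :
    Matrix.toLin' ((glOf φ : GL (Fin n) F) : Matrix (Fin n) (Fin n) F) = φ.toLinearMap :=
  Matrix.toLin'_toMatrix' _

/-- The equivalence attached to a group element. -/
noncomputable def equivOf (g : GL (Fin n) F) : (Fin n → F) ≃ₗ[F] (Fin n → F) :=
  LinearEquiv.ofLinearMap (Matrix.toLin' (g : Matrix (Fin n) (Fin n) F))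
    (Matrix.toLin' ((g⁻¹ : GL (Fin n) F) : Matrix (Fin n) (Fin n) F))
    (by rw [← Matrix.toLin'_mul, ← Units.val_mul, mul_inv_cancel]; simp)
    (by rw [← Matrix.toLin'_mul, ← Units.val_mul, inv_mul_cancel]; simp)

/-- The set of decompositions. -/
abbrev DecompSet (F : Type*) [Field F] (n t a : ℕ) :=
  {D : Fin t → Submodule F (Fin n → F) // IsMDecomposition a D}

/-- The action of the general linear group on decompositions. -/
@[instance_reducible] noncomputable def glAct : MulAction (GL (Fin n) F) (DecompSet F n t a) where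
  smul g D := ⟨fun i => (D.1 i).map (Matrix.toLin' (g : Matrix (Fin n) (Fin n) F)),
    map_isMDecomp (equivOf g) D.2⟩
  one_smul D := Subtype.ext (funext fun i => by
    change (D.1 i).map (Matrix.toLin' ((1 : GL (Fin n) F) : Matrix (Fin n) (Fin n) F)) = D.1 i
    simp)
  mul_smul g h D := Subtype.ext (funext fun i => by
    change (D.1 i).map (Matrix.toLin' ((g * h : GL (Fin n) F) : Matrix (Fin n) (Fin n) F)) =
      ((D.1 i).map (Matrix.toLin' (h : Matrix (Fin n) (Fin n) F))).map
        (Matrix.toLin' (g : Matrix (Fin n) (Fin n) F))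
    rw [Units.val_mul, Matrix.toLin'_mul, Submodule.map_comp])

/-- The action of permutations on decompositions. -/
@[instance_reducible] def permAct : MulAction (Equiv.Perm (Fin t)) (DecompSet F n t a) where
  smul σ D := ⟨fun i => D.1 (σ⁻¹ i), by
    refine ⟨D.2.two_le, D.2.pos, fun i => D.2.finrank_eq _, ?_, ?_⟩
    · exact D.2.indep.comp (σ⁻¹).injective
    · have := (σ⁻¹).iSup_comp (g := D.1)
      rw [← D.2.iSup_eq_top, ← this]⟩
  one_smul D := Subtype.ext rfl
  mul_smul g h D := Subtype.ext (funext fun i => by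
    change D.1 ((g * h)⁻¹ i) = D.1 (h⁻¹ (g⁻¹ i))
    rw [mul_inv_rev]
    rfl)

/-- Decompositions are injective families. -/
theorem decomp_injective {D : Fin t → Submodule F (Fin n → F)} (hD : IsMDecomposition a D) :
    Function.Injective D := by
  apply hD.indep.injective
  intro i hi
  have := hD.finrank_eq i
  rw [hi, finrank_bot] at this
  have h2 := hD.pos
  omega

/-- The factorial divides the number of decompositions. -/
theorem factorial_dvd [Fintype F] : Nat.factorial t ∣ Nat.card (DecompSet F n t a) := by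
  classical
  letI := permAct (F := F) (n := n) (t := t) (a := a)
  have hst : ∀ b : DecompSet F n t a, MulAction.stabilizer (Equiv.Perm (Fin t)) b = ⊥ := by
    intro b
    rw [eq_bot_iff]
    intro σ hσ
    have h1 : σ • b = b := hσ
    have h2 : ∀ i, b.1 (σ⁻¹ i) = b.1 i := fun i => congrFun (congrArg Subtype.val h1) i
    have h3 : σ⁻¹ = 1 := by
      ext i
      rw [decomp_injective b.2 (h2 i)]
      rfl
    rw [Subgroup.mem_bot]
    exact inv_eq_one.mp h3
  have e := MulAction.selfEquivOrbitsQuotientProd (G := Equiv.Perm (Fin t))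
    (X := DecompSet F n t a) hst
  rw [Nat.card_congr e, Nat.card_prod]
  have h4 : Nat.card (Equiv.Perm (Fin t)) = Nat.factorial t := by
    rw [Nat.card_eq_fintype_card, Fintype.card_perm, Fintype.card_fin]
  rw [h4]
  exact dvd_mul_left _ _

/-- Existence of a decomposition. -/
theorem exists_decomp (hn : n = a * t) (ha : 0 < a) (ht : 2 ≤ t) :
    ∃ D : Fin t → Submodule F (Fin n → F), IsMDecomposition a D := by
  classical
  have hcard : Fintype.card (Fin n) = Fintype.card (Fin t × Fin a) := by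
    simp [hn, mul_comm]
  let e : Fin n ≃ Fin t × Fin a := Fintype.equivOfCardEq hcard
  obtain ⟨D, hD, -⟩ := isMDecomp_of_basis (Pi.basisFun F (Fin n)) id LinearMap.id
    Function.injective_id (fun x => ⟨1, one_ne_zero, by simp⟩) e 1 (fun x => rfl) ht ha
  exact ⟨D, hD⟩

/-- The number of decompositions divides the order of the general linear group. -/
theorem card_dvd_GL [Fintype F] (hn : n = a * t) (ha : 0 < a) (ht : 2 ≤ t) :
    Nat.card (DecompSet F n t a) ∣ Nat.card (GL (Fin n) F) := by
  classical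
  letI := glAct (F := F) (n := n) (t := t) (a := a)
  haveI : MulAction.IsPretransitive (GL (Fin n) F) (DecompSet F n t a) := by
    refine ⟨fun D D' => ?_⟩
    obtain ⟨φ, hφ⟩ := exists_equiv_of_decomp D.2 D'.2
    refine ⟨glOf φ, Subtype.ext (funext fun i => ?_)⟩
    change (D.1 i).map (Matrix.toLin' ((glOf φ : GL (Fin n) F) : Matrix (Fin n) (Fin n) F)) = _
    rw [toLin_glOf]
    exact hφ i
  obtain ⟨D₀, hD₀⟩ := exists_decomp (F := F) hn ha ht
  rw [← MulAction.index_stabilizer_of_transitive (GL (Fin n) F)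
    (⟨D₀, hD₀⟩ : DecompSet F n t a)]
  exact Subgroup.index_dvd_card _

/-- Prime divisors of the number of unordered decompositions. -/
theorem exists_of_dvd [Fintype F] {q r : ℕ} (hq : Fintype.card F = q) (hr : r.Prime)
    (hrq : ¬ r ∣ q) (hn : n = a * t) (ha : 0 < a) (ht : 2 ≤ t)
    (h : r ∣ Nat.card (DecompSet F n t a) / Nat.factorial t) :
    ∃ l, 1 ≤ l ∧ l ≤ n ∧ r ∣ q ^ l - 1 := by
  classical
  have h1 : r ∣ Nat.card (DecompSet F n t a) :=
    h.trans (Nat.div_dvd_of_dvd factorial_dvd)
  have h2 : r ∣ Nat.card (GL (Fin n) F) := h1.trans (card_dvd_GL hn ha ht)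
  rw [Matrix.card_GL_field, hq] at h2
  obtain ⟨i, -, hi⟩ := (Prime.dvd_finsetProd_iff hr.prime _).mp h2
  have hi2 : (i : ℕ) < n := i.2
  have hq1 : 1 ≤ q := Cfsg.Agent.Lib.ElusL.Bridge.one_le_card hq
  have h3 : q ^ n - q ^ (i : ℕ) = q ^ (i : ℕ) * (q ^ (n - i) - 1) := by
    rw [Nat.mul_sub, mul_one, ← pow_add]
    congr 2
    omega
  rw [h3] at hi
  rcases hr.prime.dvd_or_dvd hi with h4 | h4
  · exact absurd (hr.dvd_of_dvd_pow h4) hrq
  · exact ⟨n - i, by omega, by omega, h4⟩

end Count

end Cfsg.Agent.Lib.ElusDec.Basic
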