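import Cfsg.Agent.Lib.ElusDec.Basic
import Cfsg.Agent.Lib.ElusL.Neg

/-!
# An operator of prime order permuting an independent family of subspaces
-/

set_option autoImplicit false
set_option linter.unusedSectionVars false
set_option linter.style.haveILetI false

open Polynomial Module

namespace Cfsg.Agent.Lib.ElusDec.Cycle

open Cfsg.Agent.Lib.ElusL.Basic Cfsg.Agent.Lib.ElusL.Flag Cfsg.Agent.Lib.ElusL.Cyc
  Cfsg.Agent.Lib.ElusL.Pos Cfsg.Agent.Lib.ElusDec.Basic

variable {F : Type*} [Field F] {V : Type*} [AddCommGroup V] [Module F V]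
  {ι : Type*} {T : End F V} {D : ι → Submodule F V} {σ : Equiv.Perm ι} {r : ℕ}

theorem map_pow_D (hσ : ∀ j, (D j).map T = D (σ j)) (i : ℕ) (j : ι) :
    (D j).map (T ^ i) = D ((σ ^ i) j) := by
  induction i generalizing j with
  | zero => exact Submodule.map_id _
  | succ i ih =>
    rw [pow_succ, pow_succ, Module.End.mul_eq_comp, Submodule.map_comp, hσ, ih]
    rfl

theorem mem_pow_D (hσ : ∀ j, (D j).map T = D (σ j)) (i : ℕ) {j : ι} {w : V} (hw : w ∈ D j) :
    (T ^ i) w ∈ D ((σ ^ i) j) := by
  rw [← map_pow_D hσ]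
  exact Submodule.mem_map_of_mem hw

theorem pow_r_fix (hσ : ∀ j, (D j).map T = D (σ j)) (hT : T ^ r = 1) (hD : Function.Injective D)
    (j : ι) : (σ ^ r) j = j := by
  apply hD
  rw [← map_pow_D hσ, hT]
  exact Submodule.map_id _

/-- The powers of a moved point are distinct. -/
theorem cycle_injective (hr : r.Prime) {j : ι} (hfix : (σ ^ r) j = j) (hj : σ j ≠ j) :
    Function.Injective (fun i : Fin r => (σ ^ (i : ℕ)) j) := by
  have hper : Function.IsPeriodicPt σ r j := by
    change σ^[r] j = j
    rw [Equiv.Perm.iterate_eq_pow]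
    exact hfix
  have key : ∀ i i' : ℕ, i < i' → i' < r → (σ ^ i) j ≠ (σ ^ i') j := by
    intro i i' h1 h2 h3
    have h4 : (σ ^ (i' - i)) j = j := by
      have h5 : (σ ^ i') j = (σ ^ i) ((σ ^ (i' - i)) j) := by
        rw [← Equiv.Perm.mul_apply, ← pow_add]
        congr 2
        omega
      rw [h5] at h3
      exact ((σ ^ i).injective h3).symm
    have hper2 : Function.IsPeriodicPt σ (i' - i) j := by
      change σ^[i' - i] j = j
      rw [Equiv.Perm.iterate_eq_pow]
      exact h4
    have h5 := hper2.gcd hper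
    have h6 : (i' - i).gcd r = 1 := by
      rw [Nat.gcd_comm]
      exact Nat.coprime_of_lt_prime (by omega) (by omega) hr
    rw [h6] at h5
    exact hj h5
  intro a b hab
  rcases lt_trichotomy (a : ℕ) (b : ℕ) with h | h | h
  · exact absurd hab (key _ _ h b.2)
  · exact Fin.ext h
  · exact absurd hab.symm (key _ _ h a.2)

theorem aeval_Phi_apply (T : End F V) (r : ℕ) (w : V) :
    Polynomial.aeval T (Phi F r) w = ∑ i : Fin r, (T ^ (i : ℕ)) w := by
  rw [Phi, map_sum, LinearMap.sum_apply,
    ← Fin.sum_univ_eq_sum_range (fun i => (Polynomial.aeval T (X ^ i : F[X])) w)]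
  simp

theorem injective_of_pow (hr : r ≠ 0) (hT : T ^ r = 1) : Function.Injective T := by
  obtain ⟨s, rfl⟩ : ∃ s, r = s + 1 := ⟨r - 1, by omega⟩
  intro u v huv
  have h1 := LinearMap.congr_fun hT u
  have h2 := LinearMap.congr_fun hT v
  rw [pow_succ, Module.End.mul_apply, huv, ← Module.End.mul_apply, ← pow_succ, h2] at h1
  exact h1.symm

theorem pow_injective (hr : r ≠ 0) (hT : T ^ r = 1) (k : ℕ) : Function.Injective (T ^ k) := by
  have h1 := injective_of_pow hr hT
  rw [Module.End.coe_pow]
  exact h1.iterate k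

variable [Fintype F] [FiniteDimensional F V]

/-- A moved summand embeds in the fixed space. -/
theorem le_finrank_A (hr : r.Prime) (hT : T ^ r = 1) (hind : iSupIndep D)
    (hσ : ∀ j, (D j).map T = D (σ j)) (hD : Function.Injective D) {j : ι} (hj : σ j ≠ j) :
    finrank F (D j) ≤ finrank F (LinearMap.ker (Polynomial.aeval T (X - 1 : F[X]))) := by
  classical
  let φ : D j →ₗ[F] V := (Polynomial.aeval T (Phi F r)).comp (D j).subtype
  have hf := cycle_injective hr (pow_r_fix hσ hT hD j) hj
  have hind' := hind.comp hf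
  have hinj : Function.Injective φ := by
    rw [injective_iff_map_eq_zero]
    rintro ⟨w, hw⟩ h0
    have h1 : ∑ i : Fin r, (T ^ (i : ℕ)) w = 0 := by
      rw [← aeval_Phi_apply]
      exact h0
    have h2 := indep_sum_eq_zero hind' (fun i : Fin r => (T ^ (i : ℕ)) w)
      (fun i => mem_pow_D hσ _ hw) h1 ⟨0, hr.pos⟩
    have h3 : w = 0 := by simpa using h2
    exact Subtype.ext h3
  have hrange : LinearMap.range φ ≤ LinearMap.ker (Polynomial.aeval T (X - 1 : F[X])) := by
    rintro _ ⟨w, rfl⟩
    rw [LinearMap.mem_ker]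
    change Polynomial.aeval T (X - 1 : F[X]) (Polynomial.aeval T (Phi F r) (w : V)) = 0
    rw [← Module.End.mul_apply, ← map_mul, aeval_X_pow_sub_one hT]
    rfl
  calc finrank F (D j) = finrank F (LinearMap.range φ) := (LinearMap.finrank_range_of_inj hinj).symm
    _ ≤ _ := Submodule.finrank_mono hrange

/-- Moved summands give a large subspace of the non-fixed part. -/
theorem le_finrank_B (hr : r.Prime) (hT : T ^ r = 1) (hind : iSupIndep D)
    (hσ : ∀ j, (D j).map T = D (σ j)) (hD : Function.Injective D) {j : ι} (hj : σ j ≠ j) :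
    (r - 1) * finrank F (D j) ≤ finrank F (LinearMap.ker (Polynomial.aeval T (Phi F r))) := by
  classical
  obtain ⟨s, rfl⟩ : ∃ s, r = s + 1 := ⟨r - 1, by have := hr.pos; omega⟩
  let φ : (Fin s → D j) →ₗ[F] V :=
    ∑ i : Fin s, ((T ^ ((i : ℕ) + 1) - 1).comp (D j).subtype).comp (LinearMap.proj i)
  have hφ : ∀ w : Fin s → D j, φ w = ∑ i : Fin s, ((T ^ ((i : ℕ) + 1)) (w i : V) - (w i : V)) := by
    intro w
    simp [φ]
  have hf := cycle_injective hr (pow_r_fix hσ hT hD j) hj
  have hind' := hind.comp hf
  have hinj : Function.Injective φ := by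
    rw [injective_iff_map_eq_zero]
    intro w h0
    rw [hφ] at h0
    let x : Fin (s + 1) → V := Fin.cons (-∑ i, (w i : V)) (fun i => (T ^ ((i : ℕ) + 1)) (w i : V))
    have hx : ∀ i, x i ∈ (D ∘ fun i : Fin (s + 1) => (σ ^ (i : ℕ)) j) i := by
      intro i
      refine Fin.cases ?_ (fun i => ?_) i
      · simp only [Function.comp, Fin.val_zero, pow_zero, Equiv.Perm.coe_one, id, x, Fin.cons_zero]
        exact Submodule.neg_mem _ (Submodule.sum_mem _ fun i _ => (w i).2)
      · simp only [Function.comp, Fin.val_succ, x, Fin.cons_succ]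
        exact mem_pow_D hσ _ (w i).2
    have hsum : ∑ i, x i = 0 := by
      rw [Fin.sum_univ_succ]
      simp only [x, Fin.cons_zero, Fin.cons_succ]
      rw [← h0, Finset.sum_sub_distrib]
      abel
    funext i
    have h1 := indep_sum_eq_zero hind' x hx hsum i.succ
    simp only [x, Fin.cons_succ] at h1
    have h2 : (w i : V) = 0 := by
      apply pow_injective (by omega) hT ((i : ℕ) + 1)
      rw [h1, map_zero]
    exact Subtype.ext h2
  have hrange : LinearMap.range φ ≤ LinearMap.ker (Polynomial.aeval T (Phi F (s + 1))) := by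
    rintro _ ⟨w, rfl⟩
    rw [LinearMap.mem_ker, hφ, map_sum]
    refine Finset.sum_eq_zero fun i _ => ?_
    have h1 : (T ^ ((i : ℕ) + 1)) (w i : V) - (w i : V) =
        Polynomial.aeval T (X ^ ((i : ℕ) + 1) - 1 : F[X]) (w i : V) := by
      simp
    rw [h1, ← Module.End.mul_apply, ← map_mul, ← Phi_mul]
    have h2 : Phi F (s + 1) * ((X - 1) * Phi F ((i : ℕ) + 1)) =
        ((X - 1) * Phi F (s + 1)) * Phi F ((i : ℕ) + 1) := by ring
    rw [h2, map_mul, aeval_X_pow_sub_one hT, zero_mul]
    rfl
  have hdim : finrank F (Fin s → D j) = s * finrank F (D j) := by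
    rw [Module.finrank_pi_fintype]
    simp
  calc (s + 1 - 1) * finrank F (D j) = finrank F (Fin s → D j) := by rw [hdim]; simp
    _ = finrank F (LinearMap.range φ) := (LinearMap.finrank_range_of_inj hinj).symm
    _ ≤ _ := Submodule.finrank_mono hrange

/-- Disjoint subspaces cut out by a common subspace. -/
theorem sum_finrank_inf_le [Fintype ι] (hind : iSupIndep D) (A : Submodule F V) :
    ∑ j, finrank F (D j ⊓ A : Submodule F V) ≤ finrank F A := by
  have h1 : iSupIndep (fun j => (D j ⊓ A : Submodule F V)) := hind.mono fun j => inf_le_left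
  rw [← Cfsg.Agent.Lib.Elusive.Atoms.finrank_iSup_fintype _ h1]
  exact Submodule.finrank_mono (iSup_le fun j => inf_le_right)

/-- Counting orbits: a permuted family of lines. -/
theorem orbit_bound [Fintype ι] (hr : r.Prime) (hT : T ^ r = 1) (hind : iSupIndep D)
    (hσ : ∀ j, (D j).map T = D (σ j)) (hD : Function.Injective D)
    (h1 : ∀ j, finrank F (D j) = 1) {c : ℕ} (hc2 : 2 ≤ c) (hcr : r = c + 1)
    {A B : Submodule F V} (hB : ∀ W : Submodule F V, Inv T W → c ∣ finrank F (W ⊓ B : Submodule F V))
    (hsplit : ∀ W : Submodule F V, Inv T W →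
      finrank F W = finrank F (W ⊓ A : Submodule F V) + finrank F (W ⊓ B : Submodule F V)) :
    Fintype.card ι ≤ r * finrank F A := by
  classical
  let S := Equiv.Perm.SameCycle.setoid σ
  let Ω := Quotient S
  let π : ι → Ω := fun j => Quotient.mk S j
  have hπ : ∀ j j', π j = π j' ↔ Equiv.Perm.SameCycle σ j j' := fun j j' => Quotient.eq (r := S)
  haveI : Fintype Ω := Fintype.ofFinite Ω
  let fib : Ω → Finset ι := fun ω => Finset.univ.filter (fun j => π j = ω)
  let W : Ω → Submodule F V := fun ω => ⨆ j ∈ fib ω, D j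
  have hWdim : ∀ ω, finrank F (W ω) = (fib ω).card := by
    intro ω
    rw [Cfsg.Agent.Lib.Elusive.Atoms.finrank_biSup D hind (fib ω)]
    simp [h1]
  have hσπ : ∀ j, π (σ j) = π j := by
    intro j
    rw [hπ]
    exact (Equiv.Perm.sameCycle_apply_left).mpr (Equiv.Perm.SameCycle.refl σ j)
  have hWinv : ∀ ω, Inv T (W ω) := by
    intro ω
    have h2 : (W ω).map T ≤ W ω := by
      simp only [W, Submodule.map_iSup]
      refine iSup₂_le fun j hj => ?_
      rw [hσ j]
      refine le_iSup₂_of_le (σ j) ?_ le_rfl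
      simp only [fib, Finset.mem_filter, Finset.mem_univ, true_and] at hj ⊢
      rw [hσπ, hj]
    exact fun v hv => h2 (Submodule.mem_map_of_mem hv)
  have hWind : iSupIndep W := by
    rw [iSupIndep_def]
    intro ω
    have hle : (⨆ (ω' : Ω) (_ : ω' ≠ ω), W ω') ≤
        ⨆ x ∈ ({y : ι | π y ≠ ω} : Set ι), D x := by
      refine iSup₂_le fun ω' hω' => iSup₂_le fun j hj => ?_
      refine le_iSup₂_of_le j ?_ le_rfl
      simp only [fib, Finset.mem_filter, Finset.mem_univ, true_and] at hj
      change π j ≠ ω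
      rw [hj]
      exact hω'
    refine Disjoint.mono_right hle ?_
    have hWω : W ω = ⨆ x ∈ ({y : ι | π y = ω} : Set ι), D x := by
      simp only [W, fib, Finset.mem_filter, Finset.mem_univ, true_and, Set.mem_ofPred_eq]
    rw [hWω]
    apply hind.disjoint_biSup_biSup
    rw [Set.disjoint_left]
    intro x hx hx'
    exact hx' hx
  have hfib : ∀ ω, (fib ω).card = 1 ∨ (fib ω).card = r := by
    intro ω
    obtain ⟨j, rfl⟩ : ∃ j, π j = ω := Quotient.exists_rep ω
    by_cases hj : σ j = j
    · left
      have h3 : fib (π j) = {j} := by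
        ext j'
        simp only [fib, Finset.mem_filter, Finset.mem_univ, true_and, Finset.mem_singleton]
        constructor
        · intro h4
          obtain ⟨i, hi⟩ := (hπ j j').mp h4.symm
          rw [← hi]
          exact Equiv.Perm.zpow_apply_eq_self_of_apply_eq_self hj i
        · rintro rfl
          rfl
      rw [h3, Finset.card_singleton]
    · right
      have hfix := pow_r_fix hσ hT hD j
      have hinj := cycle_injective hr hfix hj
      have h3 : fib (π j) = Finset.univ.image (fun i : Fin r => (σ ^ (i : ℕ)) j) := by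
        ext j'
        simp only [fib, Finset.mem_filter, Finset.mem_univ, true_and, Finset.mem_image]
        constructor
        · intro h4
          obtain ⟨i, -, hi⟩ := ((hπ j j').mp h4.symm).exists_pow_eq'
          have hper : Function.IsPeriodicPt σ r j := by
            change σ^[r] j = j
            rw [Equiv.Perm.iterate_eq_pow]
            exact hfix
          refine ⟨⟨i % r, Nat.mod_lt _ hr.pos⟩, ?_⟩
          have h5 := hper.iterate_mod_apply i
          rw [Equiv.Perm.iterate_eq_pow, Equiv.Perm.iterate_eq_pow] at h5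
          change (σ ^ (i % r)) j = j'
          rw [h5, hi]
        · rintro ⟨i, rfl⟩
          exact (hπ _ _).mpr (Equiv.Perm.SameCycle.symm ⟨(i : ℕ), by simp⟩)
      rw [h3, Finset.card_image_of_injective _ hinj, Finset.card_univ, Fintype.card_fin]
  have hone : ∀ ω, 1 ≤ finrank F (W ω ⊓ A : Submodule F V) := by
    intro ω
    by_contra hcon
    have h0 : finrank F (W ω ⊓ A : Submodule F V) = 0 := by omega
    have h2 := hsplit (W ω) (hWinv ω)
    rw [h0, zero_add, hWdim] at h2
    have h3 := hB (W ω) (hWinv ω)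
    rw [← h2] at h3
    rcases hfib ω with h4 | h4
    · rw [h4] at h3
      have := Nat.le_of_dvd one_pos h3
      omega
    · rw [h4, hcr] at h3
      have h5 : c ∣ 1 := (Nat.dvd_add_right (dvd_refl c)).mp h3
      have := Nat.le_of_dvd one_pos h5
      omega
  have hcardΩ : Fintype.card Ω ≤ finrank F A := by
    calc Fintype.card Ω = ∑ _ω : Ω, 1 := by simp
      _ ≤ ∑ ω, finrank F (W ω ⊓ A : Submodule F V) := Finset.sum_le_sum fun ω _ => hone ω
      _ ≤ finrank F A := sum_finrank_inf_le hWind A
  have hcard : Fintype.card ι ≤ r * Fintype.card Ω := by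
    have h2 : Fintype.card ι = ∑ ω, (fib ω).card := by
      rw [← Finset.card_univ]
      exact Finset.card_eq_sum_card_fiberwise (fun _ _ => Finset.mem_coe.mpr (Finset.mem_univ _))
    rw [h2]
    calc ∑ ω, (fib ω).card ≤ ∑ _ω : Ω, r := Finset.sum_le_sum fun ω _ => by
            rcases hfib ω with h4 | h4
            · rw [h4]
              exact hr.pos
            · exact h4.le
      _ = r * Fintype.card Ω := by simp [mul_comm]
  calc Fintype.card ι ≤ r * Fintype.card Ω := hcard
    _ ≤ r * finrank F A := Nat.mul_le_mul_left _ hcardΩ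

end Cfsg.Agent.Lib.ElusDec.Cycle
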