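import Cfsg.Agent.Lib.ElusDec.Cycle

/-!
# Elements of odd prime order permuting no decomposition
-/

set_option autoImplicit false
set_option linter.unusedSectionVars false
set_option linter.style.haveILetI false

open Polynomial Module

namespace Cfsg.Agent.Lib.ElusDec.Neg

open Cfsg.Agent.Lib.ElusL.Basic Cfsg.Agent.Lib.ElusL.Flag Cfsg.Agent.Lib.ElusL.Cyc
  Cfsg.Agent.Lib.ElusL.Pos Cfsg.Agent.Lib.ElusL.Neg Cfsg.Agent.Lib.ElusDec.Basic
  Cfsg.Agent.Lib.ElusDec.Cycle

variable {F : Type*} [Field F] [Fintype F] {V : Type*} [AddCommGroup V] [Module F V]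
  [FiniteDimensional F V] {q r : ℕ}

/-- An element of prime order with prescribed dimensions of the fixed space and its complement. -/
theorem exists_model (hq : Fintype.card F = q) (hr : r.Prime) (hrF : (r : F) ≠ 0) (hrq : ¬ r ∣ q)
    (hcop : ¬ r ∣ q - 1) (hi2 : 2 ≤ orderOf (q : ZMod r)) {w : ℕ} (hw0 : 1 ≤ w)
    (hw : w * orderOf (q : ZMod r) ≤ finrank F V) :
    ∃ T : End F V, T ^ r = 1 ∧ LinearMap.det T = 1 ∧ (∀ z : F, T ≠ z • 1) ∧
      finrank F (LinearMap.ker (Polynomial.aeval T (X - 1 : F[X]))) =
        finrank F V - w * orderOf (q : ZMod r) ∧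
      finrank F (LinearMap.ker (Polynomial.aeval T (Phi F r))) = w * orderOf (q : ZMod r) := by
  classical
  haveI : Fact r.Prime := ⟨hr⟩
  set i := orderOf (q : ZMod r) with hi
  set n := finrank F V with hn
  have hPhi0 := Phi_ne_zero (F := F) hr
  have hdeg : ∀ g, Irreducible g → g ∣ Phi F r → g.natDegree = i :=
    fun g hg hgd => natDegree_factor hq hr hrF hrq hg hgd
  have hPhinat : (Phi F r).natDegree ≠ 0 := by
    rw [Phi_natDegree hr]
    have := hr.two_le
    omega
  obtain ⟨g, hg, hgd⟩ := exists_irreducible_of_natDegree_ne_zero hPhinat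
  have hgi := hdeg g hg hgd
  let A := Fin (w * i) → F
  let B := Fin (n - w * i) → F
  have hdim : n = finrank F (A × B) := by
    rw [Module.finrank_prod, Module.finrank_fin_fun, Module.finrank_fin_fun]
    omega
  let e : V ≃ₗ[F] A × B := LinearEquiv.ofFinrankEq V (A × B) hdim
  obtain ⟨TA, hTA⟩ := exists_op (V := A) hg (by
    rw [hgi, Module.finrank_fin_fun]
    exact dvd_mul_left _ _)
  have hTAr : TA ^ r = 1 := by
    have h1 : g ∣ X ^ r - 1 := by
      rw [← Phi_mul]
      exact hgd.trans (dvd_mul_left _ _)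
    obtain ⟨h', hh'⟩ := h1
    have h2 : Polynomial.aeval TA (X ^ r - 1 : F[X]) = 0 := by
      rw [hh', map_mul, hTA, zero_mul]
    simp only [map_sub, map_pow, aeval_X, map_one] at h2
    exact sub_eq_zero.mp h2
  let T' : End F (A × B) := LinearMap.prodMap TA LinearMap.id
  let φ : End F (A × B) →ₐ[F] End F V := (e.symm.conjAlgEquiv F).toAlgHom
  have hφ : ∀ (S : End F (A × B)) (v : V), φ S v = e.symm (S (e v)) := fun S v => rfl
  have hT'r : T' ^ r = 1 := by
    have h1 : T' = LinearMap.prodMapAlgHom F A B (TA, 1) := rfl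
    rw [h1, ← map_pow, Prod.pow_mk, hTAr, one_pow]
    exact map_one _
  let T : End F V := φ T'
  have hTr : T ^ r = 1 := by
    change (φ T') ^ r = 1
    rw [← map_pow, hT'r, map_one]
  have hT'app : ∀ v, e (T v) = (TA (e v).1, (e v).2) := by
    intro v
    rw [hφ]
    simp [T']
  have hipos : 0 < i := by omega
  have hAne : Nontrivial A := by
    apply Module.nontrivial_of_finrank_pos (R := F)
    rw [Module.finrank_fin_fun]
    positivity
  have hann : Polynomial.aeval T ((X - 1 : F[X]) * Phi F r) = 0 := aeval_X_pow_sub_one hTr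
  have hcop' := isCoprime_Phi hrF
  have hsum := finrank_kers hcop' hann
  -- the two kernels
  have hK1 : finrank F (LinearMap.ker (Polynomial.aeval T (X - 1 : F[X]))) ≤ n - w * i := by
    let ψ : LinearMap.ker (Polynomial.aeval T (X - 1 : F[X])) →ₗ[F] B :=
      (LinearMap.snd F A B).comp (e.toLinearMap.comp (Submodule.subtype _))
    have hψ : Function.Injective ψ := by
      rw [← LinearMap.ker_eq_bot, eq_bot_iff]
      rintro ⟨v, hv⟩ hv0
      have h3 : (e v).2 = 0 := hv0
      have h4 : T v = v := by
        have h5 : Polynomial.aeval T (X - 1 : F[X]) v = 0 := LinearMap.mem_ker.mp hv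
        simp only [map_sub, aeval_X, map_one, LinearMap.sub_apply, Module.End.one_apply] at h5
        exact sub_eq_zero.mp h5
      have h5 : TA (e v).1 = (e v).1 := by
        have h6 := hT'app v
        rw [h4] at h6
        exact (Prod.ext_iff.mp h6).1.symm
      have h6 : (e v).1 = 0 := no_eigen hg (by omega) hTA (z := 1) (by simpa using h5)
      have h7 : e v = 0 := Prod.ext h6 h3
      have h8 : v = 0 := by simpa using h7
      rw [Submodule.mem_bot]
      exact Subtype.ext h8
    have := LinearMap.finrank_le_finrank_of_injective hψ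
    rwa [Module.finrank_fin_fun] at this
  have hK2 : finrank F (LinearMap.ker (Polynomial.aeval T (Phi F r))) ≤ w * i := by
    let ψ : LinearMap.ker (Polynomial.aeval T (Phi F r)) →ₗ[F] A :=
      (LinearMap.fst F A B).comp (e.toLinearMap.comp (Submodule.subtype _))
    have hψ : Function.Injective ψ := by
      rw [← LinearMap.ker_eq_bot, eq_bot_iff]
      rintro ⟨v, hv⟩ hv0
      have h3 : (e v).1 = 0 := hv0
      have h4 : T v = v := by
        apply e.injective
        rw [hT'app, h3, map_zero]
        exact Prod.ext (by simp [h3]) rfl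
      have h5 : v ∈ LinearMap.ker (Polynomial.aeval T (X - 1 : F[X])) := by
        rw [LinearMap.mem_ker]
        simp [h4]
      have h6 : v ∈ (LinearMap.ker (Polynomial.aeval T (X - 1 : F[X]))) ⊓
          LinearMap.ker (Polynomial.aeval T (Phi F r)) := ⟨h5, hv⟩
      rw [ker_disjoint hcop'] at h6
      rw [Submodule.mem_bot]
      exact Subtype.ext ((Submodule.mem_bot F).mp h6)
    have := LinearMap.finrank_le_finrank_of_injective hψ
    rwa [Module.finrank_fin_fun] at this
  refine ⟨T, hTr, ?_, ?_, by omega, by omega⟩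
  · -- determinant
    have h1 : (LinearMap.det T) ^ r = 1 := by
      rw [← map_pow, hTr, map_one]
    have h2 : LinearMap.det T ≠ 0 := by
      intro h3
      rw [h3, zero_pow hr.ne_zero] at h1
      exact zero_ne_one h1
    have h3 : (LinearMap.det T) ^ (q - 1) = 1 := by
      rw [← hq]
      exact FiniteField.pow_card_sub_one_eq_one _ h2
    have h4 := (pow_gcd_eq_one (a := LinearMap.det T)).mpr ⟨h1, h3⟩
    have h5 : r.gcd (q - 1) = 1 := (Nat.Prime.coprime_iff_not_dvd hr).mpr hcop
    rwa [h5, pow_one] at h4
  · -- not scalar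
    intro z hz
    obtain ⟨a, ha⟩ := exists_ne (0 : A)
    have h1 : TA a = z • a := by
      have h2 := hT'app (e.symm (a, 0))
      rw [hz] at h2
      simp only [LinearMap.smul_apply, Module.End.one_apply, map_smul, LinearEquiv.apply_symm_apply,
        Prod.smul_mk, smul_zero] at h2
      exact (Prod.ext_iff.mp h2).1.symm
    exact ha (no_eigen hg (by omega) hTA h1)

/-- The main negative statement, in terms of operators. -/
theorem neg_main (hq : Fintype.card F = q) (hr : r.Prime) (hrF : (r : F) ≠ 0) (hrq : ¬ r ∣ q)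
    (hcop : ¬ r ∣ q - 1) (hi2 : 2 ≤ orderOf (q : ZMod r)) {n a t : ℕ} (hV : finrank F V = n)
    (hat : n = a * t) (ha : 1 ≤ a) (hin : orderOf (q : ZMod r) ≤ n)
    (hall : ∀ T : End F V, T ^ r = 1 → LinearMap.det T = 1 → (∀ z : F, T ≠ z • 1) →
      ∃ D : Fin t → Submodule F V, (∀ j, finrank F (D j) = a) ∧ iSupIndep D ∧ iSup D = ⊤ ∧
        ∃ σ : Equiv.Perm (Fin t), ∀ j, (D j).map T = D (σ j)) :
    (a = 1 ∧ 1 < orderOf (q : ZMod r) ∧ orderOf (q : ZMod r) = r - 1 ∧
      n ≤ (n % orderOf (q : ZMod r)) * r) ∨
    (orderOf (q : ZMod r) ≤ a ∧ n % orderOf (q : ZMod r) = t * (a % orderOf (q : ZMod r))) := by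
  classical
  haveI : Fact r.Prime := ⟨hr⟩
  set c := orderOf (q : ZMod r) with hc
  have hcpos : 0 < c := by omega
  have hPhi0 := Phi_ne_zero (F := F) hr
  have hdeg : ∀ g, Irreducible g → g ∣ Phi F r → g.natDegree = c :=
    fun g hg hgd => natDegree_factor hq hr hrF hrq hg hgd
  have hcop' := isCoprime_Phi (F := F) hrF
  have hinjD : ∀ {D : Fin t → Submodule F V}, (∀ j, finrank F (D j) = a) → iSupIndep D →
      Function.Injective D := by
    intro D hd hind
    apply hind.injective
    intro i hi
    have := hd i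
    rw [hi, finrank_bot] at this
    omega
  by_cases hca : c ≤ a
  · right
    refine ⟨hca, ?_⟩
    have hw0 : 1 ≤ n / c := Nat.div_pos hin hcpos
    obtain ⟨T, hTr, hdet, hsc, hA, hB⟩ := exists_model (F := F) (V := V) hq hr hrF hrq hcop hi2 hw0
      (by rw [hV]; exact Nat.div_mul_le_self _ _)
    have hAeq : finrank F (LinearMap.ker (Polynomial.aeval T (X - 1 : F[X]))) = n % c := by
      rw [hA, hV, ← hc]
      have := Nat.div_add_mod' n c
      omega
    obtain ⟨D, hd, hind, htop, σ, hσ⟩ := hall T hTr hdet hsc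
    have hfix : ∀ j, σ j = j := by
      intro j
      by_contra hj
      have h1 := le_finrank_A hr hTr hind hσ (hinjD hd hind) hj
      rw [hd, hAeq] at h1
      have := Nat.mod_lt n hcpos
      omega
    have hinv : ∀ j, Inv T (D j) := by
      intro j v hv
      have h1 := hσ j
      rw [hfix] at h1
      rw [← h1]
      exact Submodule.mem_map_of_mem hv
    have hann := aeval_X_pow_sub_one (F := F) hTr
    have hbound : ∀ j, a % c ≤
        finrank F (D j ⊓ LinearMap.ker (Polynomial.aeval T (X - 1 : F[X])) : Submodule F V) := by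
      intro j
      have h1 := finrank_split hcop' hann (hinv j)
      obtain ⟨u, hu⟩ := dvd_finrank_inf hPhi0 hdeg (hinv j)
      rw [hu, hd j] at h1
      rw [h1, Nat.add_mul_mod_self_left]
      exact Nat.mod_le _ _
    have hsum := sum_finrank_inf_le hind (LinearMap.ker (Polynomial.aeval T (X - 1 : F[X])))
    have h2 : t * (a % c) ≤ n % c := by
      rw [← hAeq]
      refine le_trans ?_ hsum
      calc t * (a % c) = ∑ _j : Fin t, a % c := by simp
        _ ≤ _ := Finset.sum_le_sum fun j _ => hbound j
    have h3 : n % c = (t * (a % c)) % c := by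
      rw [hat, mul_comm a t, Nat.mul_mod, Nat.mul_mod t (a % c), Nat.mod_mod]
    rw [h3]
    exact Nat.mod_eq_of_lt (lt_of_le_of_lt h2 (Nat.mod_lt n hcpos))
  · left
    have hca' : a < c := by omega
    have hcr : c ≤ r - 1 := by
      have h1 : c ∣ r - 1 := by
        apply ZMod.orderOf_dvd_card_sub_one
        exact natCast_q_ne_zero hrq
      exact Nat.le_of_dvd (by have := hr.two_le; omega) h1
    -- first element: one block
    have hstep : a = 1 ∧ c = r - 1 := by
      obtain ⟨T, hTr, hdet, hsc, hA, hB⟩ := exists_model (F := F) (V := V) (w := 1) hq hr hrF hrq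
        hcop hi2 le_rfl (by rw [hV, one_mul]; exact hin)
      rw [one_mul, ← hc] at hA hB
      obtain ⟨D, hd, hind, htop, σ, hσ⟩ := hall T hTr hdet hsc
      by_cases hfix : ∀ j, σ j = j
      · exfalso
        have hinv : ∀ j, Inv T (D j) := by
          intro j v hv
          have h1 := hσ j
          rw [hfix] at h1
          rw [← h1]
          exact Submodule.mem_map_of_mem hv
        have hann := aeval_X_pow_sub_one (F := F) hTr
        have hle : ∀ j, D j ≤ LinearMap.ker (Polynomial.aeval T (X - 1 : F[X])) := by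
          intro j
          have h1 := finrank_split hcop' hann (hinv j)
          have h2 := dvd_finrank_inf hPhi0 hdeg (hinv j)
          have h3 : finrank F (D j ⊓ LinearMap.ker (Polynomial.aeval T (Phi F r)) :
              Submodule F V) ≤ a := by
            rw [← hd j]
            exact Submodule.finrank_mono inf_le_left
          have h4 : finrank F (D j ⊓ LinearMap.ker (Polynomial.aeval T (Phi F r)) :
              Submodule F V) = 0 := Nat.eq_zero_of_dvd_of_lt h2 (by omega)
          rw [h4, add_zero] at h1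
          have h5 : D j ⊓ LinearMap.ker (Polynomial.aeval T (X - 1 : F[X])) = D j :=
            Submodule.eq_of_le_of_finrank_eq inf_le_left h1.symm
          exact inf_eq_left.mp h5
        have h6 : (⊤ : Submodule F V) ≤ LinearMap.ker (Polynomial.aeval T (X - 1 : F[X])) := by
          rw [← htop]
          exact iSup_le hle
        have h7 := Submodule.finrank_mono h6
        rw [finrank_top, hA, hV] at h7
        omega
      · push Not at hfix
        obtain ⟨j, hj⟩ := hfix
        have h1 := le_finrank_B hr hTr hind hσ (hinjD hd hind) hj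
        rw [hd, hB] at h1
        have hr1 : 0 < r - 1 := by have := hr.two_le; omega
        have h2 : a * (r - 1) ≤ 1 * (r - 1) := by
          rw [one_mul, mul_comm]
          omega
        have h3 : a ≤ 1 := Nat.le_of_mul_le_mul_right h2 hr1
        have h4 : a = 1 := by omega
        subst h4
        exact ⟨rfl, by omega⟩
    obtain ⟨ha1, hcr1⟩ := hstep
    refine ⟨ha1, by omega, hcr1, ?_⟩
    subst ha1
    have hw0 : 1 ≤ n / c := Nat.div_pos hin hcpos
    obtain ⟨T, hTr, hdet, hsc, hA, hB⟩ := exists_model (F := F) (V := V) hq hr hrF hrq hcop hi2 hw0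
      (by rw [hV]; exact Nat.div_mul_le_self _ _)
    have hAeq : finrank F (LinearMap.ker (Polynomial.aeval T (X - 1 : F[X]))) = n % c := by
      rw [hA, hV, ← hc]
      have := Nat.div_add_mod' n c
      omega
    obtain ⟨D, hd, hind, htop, σ, hσ⟩ := hall T hTr hdet hsc
    have hann := aeval_X_pow_sub_one (F := F) hTr
    have h1 := orbit_bound hr hTr hind hσ (hinjD hd hind) hd hi2 (show r = c + 1 by
      have := hr.two_le
      omega) (A := LinearMap.ker (Polynomial.aeval T (X - 1 : F[X])))
      (B := LinearMap.ker (Polynomial.aeval T (Phi F r)))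
      (fun W hW => dvd_finrank_inf hPhi0 hdeg hW) (fun W hW => finrank_split hcop' hann hW)
    rw [Fintype.card_fin, hAeq] at h1
    rw [mul_comm, hat, one_mul]
    rw [hat, one_mul] at h1
    exact h1

end Cfsg.Agent.Lib.ElusDec.Neg
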