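import Cfsg.Agent.Lib.ElusDec.Cycle
import Cfsg.Agent.Lib.Elusive.EigenSplit

/-!
# Elements of prime order modulo scalars permuting a decomposition
-/

set_option autoImplicit false
set_option linter.unusedSectionVars false
set_option linter.style.haveILetI false

open Polynomial Module

namespace Cfsg.Agent.Lib.ElusDec.Pos

open Cfsg.Geo
open Cfsg.Agent.Lib.ElusL.Basic Cfsg.Agent.Lib.ElusL.Flag Cfsg.Agent.Lib.ElusL.Cyc
  Cfsg.Agent.Lib.ElusL.Pos Cfsg.Agent.Lib.ElusDec.Basic

variable {F : Type*} [Field F] {V : Type*} [AddCommGroup V] [Module F V]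
  [FiniteDimensional F V] {q r : ℕ}

/-- An injective operator maps an invariant subspace onto itself. -/
theorem map_eq_of_inv {T : End F V} (hinj : Function.Injective T) {W : Submodule F V}
    (h : Inv T W) : W.map T = W := by
  apply Submodule.eq_of_le_of_finrank_eq
  · rintro _ ⟨v, hv, rfl⟩
    exact h v hv
  · exact (LinearEquiv.finrank_eq (Submodule.equivMapOfInjective T hinj W)).symm

theorem injective_of_pow_scalar {T : End F V} {z : F} (hr : r ≠ 0) (hz : z ≠ 0)
    (hT : T ^ r = z • 1) : Function.Injective T := by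
  obtain ⟨s, rfl⟩ : ∃ s, r = s + 1 := ⟨r - 1, by omega⟩
  rw [injective_iff_map_eq_zero]
  intro v hv
  have h1 := LinearMap.congr_fun hT v
  rw [pow_succ, Module.End.mul_apply, hv, map_zero] at h1
  have h2 : z • v = 0 := h1.symm
  exact (smul_eq_zero.mp h2).resolve_left hz

/-- Adding a new summand to a family of subspaces. -/
theorem exists_snoc {s : ℕ} (D' : Fin s → Submodule F V) (U : Submodule F V) (hD' : iSupIndep D')
    (hdisj : Disjoint (iSup D') U) :
    ∃ D : Fin (s + 1) → Submodule F V, (∀ (P : Submodule F V → Prop), (∀ j, P (D' j)) → P U →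
      ∀ j, P (D j)) ∧ iSupIndep D ∧ iSup D = iSup D' ⊔ U := by
  let ε : Fin s ⊕ Fin 1 ≃ Fin (s + 1) := finSumFinEquiv
  let G : Fin s ⊕ Fin 1 → Submodule F V := Sum.elim D' (fun _ => U)
  refine ⟨G ∘ ε.symm, ?_, ?_, ?_⟩
  · intro P h1 h2 j
    rcases h : ε.symm j with x | x
    · simp only [Function.comp, h, G, Sum.elim_inl]
      exact h1 x
    · simp only [Function.comp, h, G, Sum.elim_inr]
      exact h2
  · apply iSupIndep.comp _ ε.symm.injective
    refine Cfsg.Agent.Lib.Elusive.Atoms.iSupIndep_sumElim hD' (iSupIndep_subsingleton _) ?_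
    simpa using hdisj
  · have h1 : iSup (G ∘ ε.symm) = iSup G := ε.symm.iSup_comp
    rw [h1, iSup_sum]
    simp [G]

section Ge2

variable [Fintype F]

/-- Invariant decompositions when `r` does not divide `q - 1`. -/
theorem pos_decomp (hq : Fintype.card F = q) (hr : r.Prime) (hrF : (r : F) ≠ 0) (hrq : ¬ r ∣ q)
    (hcop : ¬ r ∣ q - 1) {T : End F V} {z : F} (hz : z ≠ 0) (hT : T ^ r = z • 1) {a : ℕ} (s : ℕ) :
    ∀ W : Submodule F V, Inv T W → finrank F W = a * s →
      s * (a % orderOf (q : ZMod r)) < orderOf (q : ZMod r) →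
      ∃ D : Fin s → Submodule F V, (∀ j, Inv T (D j)) ∧ (∀ j, finrank F (D j) = a) ∧
        iSupIndep D ∧ iSup D = W := by
  classical
  set c := orderOf (q : ZMod r) with hc
  have hcpos : 0 < c := ord_pos hr hrq
  induction s with
  | zero =>
    intro W _ hd _
    rw [mul_zero] at hd
    have hW : W = ⊥ := Submodule.finrank_eq_zero.mp hd
    refine ⟨fun i => i.elim0, fun i => i.elim0, fun i => i.elim0, iSupIndep_subsingleton _, ?_⟩
    rw [hW]
    exact iSup_of_empty _
  | succ s ih =>
    intro W hW hd hlt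
    let T' : End F W := T.restrict hW
    have hT' : T' ^ r = z • 1 := by
      apply LinearMap.ext
      intro v
      apply Subtype.ext
      have h1 : T' ^ r = (T ^ r).restrict (Module.End.pow_apply_mem_of_forall_mem r hW) :=
        Module.End.pow_restrict r hW
      rw [h1, LinearMap.coe_restrict_apply, hT]
      rfl
    have hmod : (a * (s + 1)) % c = (s + 1) * (a % c) := by
      have h1 : (a * (s + 1)) % c = ((s + 1) * (a % c)) % c := by
        rw [mul_comm a, Nat.mul_mod, Nat.mul_mod (s + 1) (a % c), Nat.mod_mod]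
      rw [h1]
      exact Nat.mod_eq_of_lt hlt
    have hale : a ≤ finrank F W := by
      rw [hd]
      exact Nat.le_mul_of_pos_right a (by omega)
    have hamod : a % c ≤ finrank F W % c := by
      rw [hd, hmod]
      exact Nat.le_mul_of_pos_left _ (by omega)
    obtain ⟨U', hU', hU'd⟩ := pos_ge2 hq hr hrF hrq hcop hz hT' hale hamod
    let U : Submodule F V := U'.map W.subtype
    have hUW : U ≤ W := by
      rintro _ ⟨v, -, rfl⟩
      exact v.2
    have hUd : finrank F U = a := by
      rw [← hU'd]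
      exact (LinearEquiv.finrank_eq (Submodule.equivMapOfInjective _ W.injective_subtype _)).symm
    have hUinv : Inv T U := by
      rintro _ ⟨v, hv, rfl⟩
      exact ⟨T' v, hU' v hv, rfl⟩
    obtain ⟨W₀, hW₀, hcompl⟩ := Cfsg.Agent.Lib.ElusL.Dec1.exists_inv_compl hrF hz hT hUinv
    let W' : Submodule F V := W₀ ⊓ W
    have hW'inv : Inv T W' := fun v hv => ⟨hW₀ v hv.1, hW v hv.2⟩
    have hsup : U ⊔ W' = W := by
      have h1 := sup_inf_assoc_of_le W₀ hUW
      rw [hcompl.sup_eq_top, top_inf_eq] at h1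
      exact h1.symm
    have hinf : U ⊓ W' = ⊥ := by
      rw [eq_bot_iff, ← hcompl.inf_eq_bot]
      exact inf_le_inf_left _ inf_le_left
    have hW'd : finrank F W' = a * s := by
      have h1 := Submodule.finrank_sup_add_finrank_inf_eq U W'
      rw [hsup, hinf, finrank_bot, add_zero, hd, hUd] at h1
      have h2 : a * (s + 1) = a * s + a := by ring
      omega
    have hlt' : s * (a % c) < c := by
      refine lt_of_le_of_lt (Nat.mul_le_mul_right _ (by omega)) hlt
    obtain ⟨D', hD'inv, hD'd, hD'ind, hD'top⟩ := ih W' hW'inv hW'd hlt'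
    have hdisj : Disjoint (iSup D') U := by
      rw [hD'top, disjoint_iff, inf_comm]
      exact hinf
    obtain ⟨D, hD1, hD2, hD3⟩ := exists_snoc D' U hD'ind hdisj
    refine ⟨D, hD1 (fun X => Inv T X) hD'inv hUinv, hD1 (fun X => finrank F X = a) hD'd hUd, hD2, ?_⟩
    rw [hD3, hD'top, sup_comm, hsup]

end Ge2

end Cfsg.Agent.Lib.ElusDec.Pos
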