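import Cfsg.Agent.Lib.ElusDec.Pos

/-!
# Elements of prime order modulo scalars permuting a decomposition: the case `r ∣ q - 1`
-/

set_option autoImplicit false
set_option linter.unusedSectionVars false
set_option linter.style.haveILetI false

open Polynomial Module

namespace Cfsg.Agent.Lib.ElusDec.Pos2

open Cfsg.Geo
open Cfsg.Agent.Lib.ElusL.Basic Cfsg.Agent.Lib.ElusL.Flag Cfsg.Agent.Lib.ElusL.Cyc
  Cfsg.Agent.Lib.ElusL.Pos Cfsg.Agent.Lib.ElusDec.Basic Cfsg.Agent.Lib.ElusDec.Pos

variable {F : Type*} [Field F] {q r : ℕ}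

theorem prod_univ_X_sub_C [Fintype F] : ∏ α : F, (X - C α) = (X ^ Fintype.card F - X : F[X]) := by
  classical
  have hq1 : 1 < Fintype.card F := Fintype.one_lt_card
  have hm : (X ^ Fintype.card F - X : F[X]).Monic :=
    monic_X_pow_sub (by rw [degree_X]; exact_mod_cast hq1)
  have hd := FiniteField.X_pow_card_sub_X_natDegree_eq F hq1
  have h1 := prod_multiset_X_sub_C_of_monic_of_roots_card_eq hm (by
    rw [FiniteField.roots_X_pow_card_sub_X, hd]
    simp)
  rw [FiniteField.roots_X_pow_card_sub_X] at h1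
  exact h1

/-- The eigenbasis case. -/
theorem pos_split [Fintype F] {n a t : ℕ} (hn : n = a * t) (ha : 0 < a) (ht : 2 ≤ t)
    (hq : Fintype.card F = q) (hr : r.Prime) (hdvd : r ∣ q - 1) {T : End F (Fin n → F)} {z b : F}
    (hz : z ≠ 0) (hT : T ^ r = z • 1) (hb : b ^ r = z) :
    ∃ D : Fin t → Submodule F (Fin n → F), IsMDecomposition a D ∧
      ∃ σ : Equiv.Perm (Fin t), ∀ j, (D j).map T = D (σ j) := by
  classical
  have hb0 : b ≠ 0 := by
    rintro rfl
    rw [zero_pow hr.ne_zero] at hb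
    exact hz hb.symm
  have hinj := injective_of_pow_scalar hr.ne_zero hz hT
  set y := b⁻¹ • T with hy
  have hyr : y ^ r = 1 := scale_pow hb hb0 hT
  have hTy : T = b • y := by
    rw [hy, smul_smul, mul_inv_cancel₀ hb0, one_smul]
  have hq1 : 1 < q := by
    rw [← hq]
    exact Fintype.one_lt_card
  obtain ⟨s, hs⟩ := hdvd
  have hyq : y ^ q = y := by
    have h1 : q = r * s + 1 := by omega
    rw [h1, pow_succ, pow_mul, hyr, one_pow, one_mul]
  have h0 : Polynomial.aeval y (∏ α : F, (X - C α)) = 0 := by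
    rw [prod_univ_X_sub_C, hq]
    simp [hyq]
  obtain ⟨d, B, hB, -⟩ := Cfsg.Agent.Lib.Elusive.EigenSplit.exists_eigen_basis y Finset.univ h0 n
    (Module.finrank_fin_fun F)
  have hcard : Fintype.card (Fin n) = Fintype.card (Fin t × Fin a) := by
    simp [hn, mul_comm]
  let e : Fin n ≃ Fin t × Fin a := Fintype.equivOfCardEq hcard
  obtain ⟨D, hD, hmap⟩ := isMDecomp_of_basis B id T hinj (fun i => by
    refine ⟨b * d i, ?_, ?_⟩
    · intro h
      have h1 : T (B i) = 0 := by
        rw [hTy, LinearMap.smul_apply, hB, smul_smul, h, zero_smul]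
      have h2 : B i = 0 := hinj (by rw [h1, map_zero])
      exact B.ne_zero i h2
    · rw [hTy, LinearMap.smul_apply, hB, smul_smul]
      rfl) e 1 (fun x => rfl) ht ha
  exact ⟨D, hD, 1, hmap⟩

section Cyclic

variable {V : Type*} [AddCommGroup V] [Module F V] [FiniteDimensional F V]

/-- A basis adapted to the action of `F[X]/(g)`. -/
theorem exists_cyclic_basis {g : F[X]} (hg : Irreducible g) {T : End F V}
    (h0 : Polynomial.aeval T g = 0) :
    ∃ (u : ℕ) (c : Fin u → V) (b : Basis (Fin g.natDegree × Fin u) F V),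
      ∀ i j, b (i, j) = (T ^ (i : ℕ)) (c j) := by
  classical
  haveI : Fact (Irreducible g) := ⟨hg⟩
  haveI := finiteDimensional_adjoin (F := F) hg
  let ρ := rhoOf T g h0
  letI := modOf ρ
  haveI := towerOf ρ
  haveI : FiniteDimensional (AdjoinRoot g) V := FiniteDimensional.right F (AdjoinRoot g) V
  let pb := AdjoinRoot.powerBasis hg.ne_zero
  let cb := Module.finBasis (AdjoinRoot g) V
  have hdim : pb.dim = g.natDegree := AdjoinRoot.powerBasis_dim hg.ne_zero
  refine ⟨finrank (AdjoinRoot g) V, cb, (pb.basis.smulTower cb).reindex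
    (Equiv.prodCongr (finCongr hdim) (Equiv.refl _)), ?_⟩
  intro i j
  rw [Basis.reindex_apply]
  simp only [Equiv.prodCongr_symm, Equiv.prodCongr_apply, Prod.map, finCongr_symm, Equiv.refl_symm,
    Equiv.refl_apply]
  rw [Basis.smulTower_apply]
  change ρ (pb.basis _) (cb j) = _
  rw [PowerBasis.coe_basis, map_pow]
  have h1 : ρ pb.gen = T := by
    rw [AdjoinRoot.powerBasis_gen]
    exact rhoOf_root h0
  rw [h1]
  rfl

theorem finRotate_val_of_lt {r : ℕ} (i : Fin r) (h : (i : ℕ) + 1 < r) :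
    (finRotate r i : ℕ) = i + 1 := by
  obtain ⟨s, rfl⟩ : ∃ s, r = s + 1 := ⟨r - 1, by have := i.2; omega⟩
  rw [coe_finRotate, if_neg]
  intro h1
  rw [h1] at h
  simp at h

theorem finRotate_val_of_eq {r : ℕ} (i : Fin r) (h : (i : ℕ) + 1 = r) :
    (finRotate r i : ℕ) = 0 := by
  obtain ⟨s, rfl⟩ : ∃ s, r = s + 1 := ⟨r - 1, by have := i.2; omega⟩
  rw [coe_finRotate, if_pos]
  apply Fin.ext
  simp
  omega

/-- Atoms for the non-split case. -/
theorem exists_rot_basis [Fintype F] (hr : r.Prime) {T : End F V} {z : F} (hz : z ≠ 0)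
    (hirr : Irreducible (X ^ r - C z : F[X])) (hT : T ^ r = z • 1) :
    ∃ (u : ℕ) (b : Basis (Fin r × Fin u) F V),
      ∀ i j, ∃ l : F, l ≠ 0 ∧ T (b (i, j)) = l • b (finRotate r i, j) := by
  have h0 : Polynomial.aeval T (X ^ r - C z : F[X]) = 0 := (det_of_irr hr hirr hT).1
  obtain ⟨u, c, b₀, hb₀⟩ := exists_cyclic_basis hirr h0
  have hd : (X ^ r - C z : F[X]).natDegree = r := natDegree_X_pow_sub_C
  let b : Basis (Fin r × Fin u) F V :=
    b₀.reindex (Equiv.prodCongr (finCongr hd) (Equiv.refl _))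
  have hb : ∀ i j, b (i, j) = (T ^ (i : ℕ)) (c j) := by
    intro i j
    simp only [b, Basis.reindex_apply, Equiv.prodCongr_symm, Equiv.prodCongr_apply, Prod.map,
      finCongr_symm, Equiv.refl_symm, Equiv.refl_apply]
    rw [hb₀]
    simp
  refine ⟨u, b, fun i j => ?_⟩
  rw [hb]
  by_cases hi : (i : ℕ) + 1 < r
  · refine ⟨1, one_ne_zero, ?_⟩
    rw [one_smul, hb, finRotate_val_of_lt i hi, pow_succ', Module.End.mul_apply]
  · have hi' : (i : ℕ) + 1 = r := by
      have := i.2
      omega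
    refine ⟨z, hz, ?_⟩
    rw [hb, finRotate_val_of_eq i hi', pow_zero, Module.End.one_apply, ← Module.End.mul_apply,
      ← pow_succ', hi', hT]
    rfl

end Cyclic

/-- The non-split case. -/
theorem pos_nonsplit [Fintype F] {n a t : ℕ} (hn : n = a * t) (ha : 0 < a) (ht : 2 ≤ t)
    (hr : r.Prime) {T : End F (Fin n → F)} {z : F}
    (hz : z ≠ 0) (hirr : Irreducible (X ^ r - C z : F[X])) (hT : T ^ r = z • 1) :
    ∃ D : Fin t → Submodule F (Fin n → F), IsMDecomposition a D ∧
      ∃ σ : Equiv.Perm (Fin t), ∀ j, (D j).map T = D (σ j) := by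
  classical
  have hinj := injective_of_pow_scalar hr.ne_zero hz hT
  obtain ⟨u, b, hb⟩ := exists_rot_basis hr hz hirr hT
  have hdim : r * u = a * t := by
    have h1 := Module.finrank_eq_card_basis b
    rw [Module.finrank_fin_fun] at h1
    simp only [Fintype.card_prod, Fintype.card_fin] at h1
    omega
  have hmap : ∀ x : Fin r × Fin u, ∃ l : F, l ≠ 0 ∧ T (b x) = l • b (finRotate r x.1, x.2) := by
    rintro ⟨i, j⟩
    exact hb i j
  have hrpos := hr.pos
  have hra : r ∣ a * t := ⟨u, hdim.symm⟩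
  rcases hr.prime.dvd_or_dvd hra with ⟨a', rfl⟩ | ⟨t', rfl⟩
  · -- bins are chunks of the second coordinate
    have hu : u = a' * t := by
      apply Nat.eq_of_mul_eq_mul_left hrpos
      rw [hdim]
      ring
    have ha' : 0 < a' := Nat.pos_of_mul_pos_left ha |> fun h => by
      rcases Nat.eq_zero_or_pos a' with h0 | h0
      · rw [h0, mul_zero] at ha
        exact absurd ha (lt_irrefl _)
      · exact h0
    have h1 : Fintype.card (Fin u) = Fintype.card (Fin t × Fin a') := by
      simp [hu, mul_comm]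
    have h2 : Fintype.card (Fin (r * a')) = Fintype.card (Fin r × Fin a') := by
      simp
    let ε : Fin u ≃ Fin t × Fin a' := Fintype.equivOfCardEq h1
    let δ : Fin (r * a') ≃ Fin r × Fin a' := Fintype.equivOfCardEq h2
    let e : Fin r × Fin u ≃ Fin t × Fin (r * a') :=
      { toFun := fun x => ((ε x.2).1, δ.symm (x.1, (ε x.2).2))
        invFun := fun y => ((δ y.2).1, ε.symm (y.1, (δ y.2).2))
        left_inv := by
          rintro ⟨i, j⟩
          simp
        right_inv := by
          rintro ⟨i, j⟩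
          simp }
    obtain ⟨D, hD, hm⟩ := isMDecomp_of_basis b (fun x => (finRotate r x.1, x.2)) T hinj hmap e 1
      (fun x => rfl) ht ha
    exact ⟨D, hD, 1, hm⟩
  · -- bins are permuted
    have hu : u = a * t' := by
      apply Nat.eq_of_mul_eq_mul_left hrpos
      rw [hdim]
      ring
    have h1 : Fintype.card (Fin u) = Fintype.card (Fin t' × Fin a) := by
      simp [hu, mul_comm]
    have h2 : Fintype.card (Fin (r * t')) = Fintype.card (Fin r × Fin t') := by
      simp
    let ε : Fin u ≃ Fin t' × Fin a := Fintype.equivOfCardEq h1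
    let δ : Fin (r * t') ≃ Fin r × Fin t' := Fintype.equivOfCardEq h2
    let e : Fin r × Fin u ≃ Fin (r * t') × Fin a :=
      { toFun := fun x => (δ.symm (x.1, (ε x.2).1), (ε x.2).2)
        invFun := fun y => ((δ y.1).1, ε.symm ((δ y.1).2, y.2))
        left_inv := by
          rintro ⟨i, j⟩
          simp
        right_inv := by
          rintro ⟨i, j⟩
          simp }
    let σ : Equiv.Perm (Fin (r * t')) :=
      δ.trans ((Equiv.prodCongr (finRotate r) (Equiv.refl _)).trans δ.symm)
    obtain ⟨D, hD, hm⟩ := isMDecomp_of_basis b (fun x => (finRotate r x.1, x.2)) T hinj hmap e σ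
      (fun x => by simp [e, σ]) ht ha
    exact ⟨D, hD, σ, hm⟩

/-- The case `r ∣ q - 1`. -/
theorem pos_eq1 [Fintype F] {n a t : ℕ} (hn : n = a * t) (ha : 0 < a) (ht : 2 ≤ t)
    (hq : Fintype.card F = q) (hr : r.Prime) (hdvd : r ∣ q - 1) {T : End F (Fin n → F)} {z : F}
    (hz : z ≠ 0) (hT : T ^ r = z • 1) :
    ∃ D : Fin t → Submodule F (Fin n → F), IsMDecomposition a D ∧
      ∃ σ : Equiv.Perm (Fin t), ∀ j, (D j).map T = D (σ j) := by
  by_cases hpow : ∃ b, b ^ r = z
  · obtain ⟨b, hb⟩ := hpow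
    exact pos_split hn ha ht hq hr hdvd hz hT hb
  · push Not at hpow
    exact pos_nonsplit hn ha ht hr hz (X_pow_sub_C_irreducible_of_prime hr hpow) hT

end Cfsg.Agent.Lib.ElusDec.Pos2
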