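import Cfsg.Agent.Lib.ElusDec.Pos2
import Cfsg.Agent.Lib.ElusL.Arith

/-!
# Elements of prime order permuting a decomposition into lines
-/

set_option autoImplicit false
set_option linter.unusedSectionVars false
set_option linter.style.haveILetI false

open Polynomial Module

namespace Cfsg.Agent.Lib.ElusDec.Pos3

open Cfsg.Geo
open Cfsg.Agent.Lib.ElusL.Basic Cfsg.Agent.Lib.ElusL.Flag Cfsg.Agent.Lib.ElusL.Cyc
  Cfsg.Agent.Lib.ElusL.Arith Cfsg.Agent.Lib.ElusL.Pos Cfsg.Agent.Lib.ElusDec.Basic
  Cfsg.Agent.Lib.ElusDec.Pos Cfsg.Agent.Lib.ElusDec.Pos2 Cfsg.Agent.Lib.ElusDec.Cycle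

variable {F : Type*} [Field F] [Fintype F] {q r : ℕ}

/-- The cyclotomic polynomial is irreducible when the order is as large as possible. -/
theorem Phi_irreducible (hq : Fintype.card F = q) (hr : r.Prime) (hrF : (r : F) ≠ 0) (hrq : ¬ r ∣ q)
    (hcr : orderOf (q : ZMod r) = r - 1) (hc2 : 2 ≤ orderOf (q : ZMod r)) :
    Irreducible (Phi F r) := by
  have hPhi0 := Phi_ne_zero (F := F) hr
  have hPhinat : (Phi F r).natDegree ≠ 0 := by
    rw [Phi_natDegree hr]
    omega
  obtain ⟨g, hg, h, hh⟩ := exists_irreducible_of_natDegree_ne_zero hPhinat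
  have hgd := natDegree_factor hq hr hrF hrq hg ⟨h, hh⟩
  have hh0 : h ≠ 0 := by
    rintro rfl
    rw [mul_zero] at hh
    exact hPhi0 hh
  have h1 : (Phi F r).natDegree = g.natDegree + h.natDegree := by
    rw [hh]
    exact natDegree_mul hg.ne_zero hh0
  rw [Phi_natDegree hr, hgd, hcr] at h1
  have h2 : h.natDegree = 0 := by omega
  have h3 : IsUnit h := by
    rw [eq_C_of_natDegree_eq_zero h2] at hh0 ⊢
    exact isUnit_C.mpr (isUnit_iff_ne_zero.mpr (by simpa using hh0))
  rw [hh]
  exact (associated_mul_unit_right g h h3).irreducible hg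

variable {V : Type*} [AddCommGroup V] [Module F V] [FiniteDimensional F V]

/-- The basis of lines permuted by an element of order `r` with `Φ` irreducible. -/
theorem exists_line_basis (hq : Fintype.card F = q) (hr : r.Prime) (hrF : (r : F) ≠ 0)
    (hrq : ¬ r ∣ q) (hcr : orderOf (q : ZMod r) = r - 1) (hc2 : 2 ≤ orderOf (q : ZMod r))
    {y : End F V} (hyr : y ^ r = 1)
    (hcond : finrank F V ≤ (finrank F V % orderOf (q : ZMod r)) * r) :
    ∃ (u l : ℕ) (b : Basis ((Fin u × Fin r) ⊕ Fin l) F V),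
      (∀ j i, y (b (Sum.inl (j, i))) = b (Sum.inl (j, finRotate r i))) ∧
      ∀ k, y (b (Sum.inr k)) = b (Sum.inr k) := by
  classical
  set c := orderOf (q : ZMod r) with hc
  have hcpos : 0 < c := by omega
  have hrc : r = c + 1 := by
    have := hr.two_le
    omega
  have hirr := Phi_irreducible hq hr hrF hrq hcr hc2
  have hann := aeval_X_pow_sub_one (F := F) hyr
  have hcop' := isCoprime_Phi (F := F) hrF
  set A := LinearMap.ker (Polynomial.aeval y (X - 1 : F[X])) with hA
  set B := LinearMap.ker (Polynomial.aeval y (Phi F r)) with hB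
  have hsum : finrank F V = finrank F A + finrank F B := finrank_kers hcop' hann
  have hBinv : Inv y B := inv_ker y _
  let y' : End F B := y.restrict hBinv
  have hy'0 : Polynomial.aeval y' (Phi F r) = 0 := by
    apply LinearMap.ext
    intro v
    apply Subtype.ext
    rw [aeval_restrict_coe]
    exact LinearMap.mem_ker.mp v.2
  obtain ⟨u, c', b', hb'⟩ := exists_cyclic_basis hirr hy'0
  have hdeg : (Phi F r).natDegree = c := by
    rw [Phi_natDegree hr, hcr]
  have hBdim : finrank F B = c * u := by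
    have h1 := Module.finrank_eq_card_basis b'
    simp only [Fintype.card_prod, Fintype.card_fin] at h1
    rw [h1, hdeg]
  have hy'pow : ∀ (i : ℕ) (v : B), (((y' ^ i) v : B) : V) = (y ^ i) (v : V) := by
    intro i v
    have h1 : y' ^ i = (y ^ i).restrict (Module.End.pow_apply_mem_of_forall_mem i hBinv) :=
      Module.End.pow_restrict i hBinv
    rw [h1, LinearMap.coe_restrict_apply]
  -- arithmetic
  set n := finrank F V with hn
  have hmodA : n % c ≤ finrank F A := by
    have h1 : n % c = finrank F A % c := by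
      rw [hsum, hBdim, Nat.add_mul_mod_self_left]
    rw [h1]
    exact Nat.mod_le _ _
  have hun : u ≤ finrank F A := by
    have h1 := Nat.div_add_mod n c
    have h2 : u ≤ n / c := by
      rw [Nat.le_div_iff_mul_le hcpos, mul_comm]
      omega
    have h3 : n / c ≤ n % c := by
      rw [hrc] at hcond
      have h4 : c * (n / c) ≤ c * (n % c) := by
        have h5 : (n % c) * (c + 1) = c * (n % c) + n % c := by ring
        omega
      exact Nat.le_of_mul_le_mul_left h4 hcpos
    omega
  set e := finrank F A with he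
  let bA : Basis (Fin e) F A := Module.finBasis F A
  have hε : Fintype.card (Fin u ⊕ Fin (e - u)) = Fintype.card (Fin e) := by
    simp
    omega
  let ε : Fin u ⊕ Fin (e - u) ≃ Fin e := Fintype.equivOfCardEq hε
  let a' : Fin u → V := fun j => (bA (ε (Sum.inl j)) : V)
  let f' : Fin (e - u) → V := fun k => (bA (ε (Sum.inr k)) : V)
  let v' : Fin u → V := fun j => a' j + (c' j : V)
  let I := (Fin u × Fin r) ⊕ Fin (e - u)
  let w : I → V := Sum.elim (fun x => (y ^ (x.2 : ℕ)) (v' x.1)) f'
  have hyA : ∀ v ∈ A, y v = v := by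
    intro v hv
    have h5 : Polynomial.aeval y (X - 1 : F[X]) v = 0 := LinearMap.mem_ker.mp hv
    simp only [map_sub, aeval_X, map_one, LinearMap.sub_apply, Module.End.one_apply] at h5
    exact sub_eq_zero.mp h5
  have hyApow : ∀ (i : ℕ), ∀ v ∈ A, (y ^ i) v = v := by
    intro i v hv
    induction i with
    | zero => simp
    | succ i ih => rw [pow_succ, Module.End.mul_apply, hyA v hv, ih]
  have ha'A : ∀ j, a' j ∈ A := fun j => (bA _).2
  have hf'A : ∀ k, f' k ∈ A := fun k => (bA _).2
  let S := Submodule.span F (Set.range w)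
  have hwS : ∀ x, w x ∈ S := fun x => Submodule.subset_span ⟨x, rfl⟩
  have hvS : ∀ j (i : Fin r), (y ^ (i : ℕ)) (v' j) ∈ S := fun j i => hwS (Sum.inl (j, i))
  have hfS : ∀ k, f' k ∈ S := fun k => hwS (Sum.inr k)
  have haS : ∀ j, a' j ∈ S := by
    intro j
    have h1 : ∑ i : Fin r, (y ^ (i : ℕ)) (v' j) = (r : F) • a' j := by
      have h2 : ∀ i : Fin r, (y ^ (i : ℕ)) (v' j) = a' j + (y ^ (i : ℕ)) (c' j : V) := by
        intro i
        simp only [v']
        rw [map_add, hyApow _ _ (ha'A j)]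
      simp only [h2]
      rw [Finset.sum_add_distrib, ← aeval_Phi_apply, LinearMap.mem_ker.mp (c' j).2, add_zero]
      simp [Nat.cast_smul_eq_nsmul]
    have h3 : (r : F)⁻¹ • ∑ i : Fin r, (y ^ (i : ℕ)) (v' j) = a' j := by
      rw [h1, smul_smul, inv_mul_cancel₀ hrF, one_smul]
    rw [← h3]
    exact S.smul_mem _ (S.sum_mem fun i _ => hvS j i)
  have hcS : ∀ j (i : Fin r), (y ^ (i : ℕ)) (c' j : V) ∈ S := by
    intro j i
    have h1 : (y ^ (i : ℕ)) (c' j : V) = (y ^ (i : ℕ)) (v' j) - a' j := by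
      simp only [v']
      rw [map_add, hyApow _ _ (ha'A j)]
      abel
    rw [h1]
    exact S.sub_mem (hvS j i) (haS j)
  have hbAS : ∀ m, (bA m : V) ∈ S := by
    intro m
    obtain ⟨x, rfl⟩ := ε.surjective m
    rcases x with j | k
    · exact haS j
    · exact hfS k
  have hAS : A ≤ S := by
    intro v hv
    have h0 := congrArg Subtype.val (bA.sum_repr ⟨v, hv⟩)
    rw [Submodule.coe_sum] at h0
    have h1 : v = ∑ m, bA.repr ⟨v, hv⟩ m • (bA m : V) := by
      simpa only [Submodule.coe_smul] using h0.symm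
    rw [h1]
    exact S.sum_mem fun m _ => S.smul_mem _ (hbAS m)
  have hBS : B ≤ S := by
    intro v hv
    have h0 := congrArg Subtype.val (b'.sum_repr ⟨v, hv⟩)
    rw [Submodule.coe_sum] at h0
    have h1 : v = ∑ m, b'.repr ⟨v, hv⟩ m • (b' m : V) := by
      simpa only [Submodule.coe_smul] using h0.symm
    rw [h1]
    refine S.sum_mem fun m _ => S.smul_mem _ ?_
    obtain ⟨i, j⟩ := m
    rw [hb', hy'pow]
    have hi : (i : ℕ) < r := by
      have := i.2
      omega
    exact hcS j ⟨i, hi⟩
  have htop : (⊤ : Submodule F V) ≤ S := by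
    have h1 : A ⊔ B = ⊤ := by
      apply Submodule.eq_top_of_finrank_eq
      have h2 := Submodule.finrank_sup_add_finrank_inf_eq A B
      rw [ker_disjoint hcop', finrank_bot, add_zero] at h2
      omega
    rw [← h1]
    exact sup_le hAS hBS
  have hcardI : Fintype.card I = n := by
    simp only [I, Fintype.card_sum, Fintype.card_prod, Fintype.card_fin]
    rw [hsum, hBdim, hrc]
    have h2 : u * (c + 1) = c * u + u := by ring
    omega
  let b : Basis I F V := basisOfTopLeSpanOfCardEqFinrank w htop hcardI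
  have hb : ∀ x, b x = w x := fun x => by
    simp only [b, coe_basisOfTopLeSpanOfCardEqFinrank]
  refine ⟨u, e - u, b, ?_, ?_⟩
  · intro j i
    rw [hb, hb]
    change y ((y ^ (i : ℕ)) (v' j)) = (y ^ ((finRotate r i : Fin r) : ℕ)) (v' j)
    by_cases hi : (i : ℕ) + 1 < r
    · rw [finRotate_val_of_lt i hi, pow_succ', Module.End.mul_apply]
    · have hi' : (i : ℕ) + 1 = r := by
        have := i.2
        omega
      rw [finRotate_val_of_eq i hi', pow_zero, Module.End.one_apply, ← Module.End.mul_apply,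
        ← pow_succ', hi', hyr, Module.End.one_apply]
  · intro k
    rw [hb]
    exact hyA _ (hf'A k)

/-- The special case `a = 1`. -/
theorem pos_special {n : ℕ} (hn2 : 2 ≤ n) (hq : Fintype.card F = q) (hr : r.Prime)
    (hrF : (r : F) ≠ 0) (hrq : ¬ r ∣ q) (hcop : ¬ r ∣ q - 1) (hcr : orderOf (q : ZMod r) = r - 1)
    (hc2 : 2 ≤ orderOf (q : ZMod r)) (hcond : n ≤ (n % orderOf (q : ZMod r)) * r)
    {T : End F (Fin n → F)} {z : F} (hz : z ≠ 0) (hT : T ^ r = z • 1) :
    ∃ D : Fin n → Submodule F (Fin n → F), IsMDecomposition 1 D ∧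
      ∃ σ : Equiv.Perm (Fin n), ∀ j, (D j).map T = D (σ j) := by
  classical
  obtain ⟨s, hs⟩ := exists_root_of_coprime hq hr hcop hz
  have hs0 : s ≠ 0 := by
    rintro rfl
    rw [zero_pow hr.ne_zero] at hs
    exact hz hs.symm
  have hinj := injective_of_pow_scalar hr.ne_zero hz hT
  set y := s⁻¹ • T with hy
  have hyr : y ^ r = 1 := scale_pow hs hs0 hT
  have hTy : T = s • y := by
    rw [hy, smul_smul, mul_inv_cancel₀ hs0, one_smul]
  obtain ⟨u, l, b, hb1, hb2⟩ := exists_line_basis (V := Fin n → F) hq hr hrF hrq hcr hc2 hyr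
    (by rw [Module.finrank_fin_fun]; exact hcond)
  let I := (Fin u × Fin r) ⊕ Fin l
  let τe : Equiv.Perm I :=
    Equiv.sumCongr (Equiv.prodCongr (Equiv.refl _) (finRotate r)) (Equiv.refl _)
  have hcard : Fintype.card I = Fintype.card (Fin n) := by
    have h1 := Module.finrank_eq_card_basis b
    rw [Module.finrank_fin_fun] at h1
    rw [Fintype.card_fin]
    exact h1.symm
  let e₀ : I ≃ Fin n := Fintype.equivOfCardEq hcard
  let σ : Equiv.Perm (Fin n) := e₀.symm.trans (τe.trans e₀)
  let e : I ≃ Fin n × Fin 1 := e₀.trans (Equiv.prodUnique _ _).symm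
  obtain ⟨D, hD, hm⟩ := isMDecomp_of_basis b τe T hinj (fun x => ⟨s, hs0, by
    rw [hTy, LinearMap.smul_apply]
    congr 1
    rcases x with ⟨j, i⟩ | k
    · exact hb1 j i
    · exact hb2 k⟩) e σ (fun x => by simp [e, σ]) hn2 one_pos
  exact ⟨D, hD, σ, hm⟩

end Cfsg.Agent.Lib.ElusDec.Pos3
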