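import Cfsg.Agent.Lib.ElusDec.SpNegD

/-!
# Orthogonal decompositions: existence and counting
-/

set_option autoImplicit false
set_option linter.unusedSectionVars false
set_option linter.style.haveILetI false
set_option linter.unusedVariables false

open Polynomial Module Matrix

universe u

namespace Cfsg.Agent.Lib.ElusDec.SpCountD

open Cfsg Cfsg.Geo Cfsg.Agent.Lib.ElusL.Basic Cfsg.Agent.Lib.ElusL.Flag Cfsg.Agent.Lib.ElusL.Cyc
  Cfsg.Agent.Lib.ElusL.Pos Cfsg.Agent.Lib.ElusF.Form Cfsg.Agent.Lib.ElusF.Step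
  Cfsg.Agent.Lib.ElusF.Split Cfsg.Agent.Lib.ElusF.SpModel Cfsg.Agent.Lib.ElusF.SpNeg
  Cfsg.Agent.Lib.ElusF.SpPos Cfsg.Agent.Lib.ElusF.SpPos2 Cfsg.Agent.Lib.ElusF.SpTwo
  Cfsg.Agent.Lib.ElusF.SpMain Cfsg.Agent.Lib.Classical.SympForm Cfsg.Agent.Lib.ElusF.SpNd
  Cfsg.Agent.Lib.ElusF.SpNdThm Cfsg.Agent.Lib.ElusDec.Cycle Cfsg.Agent.Lib.ElusDec.SpOrth
  Cfsg.Agent.Lib.ElusDec.SpNegD

variable {F : Type u} [Field F] {d t a : ℕ}

/-- The set of orthogonal decompositions. -/
abbrev SpDec (F : Type u) [Field F] (d t a : ℕ) :=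
  {D : Fin t → Submodule F (Fin d ⊕ Fin d → F) // (IsMDecomposition a D ∧
    (∀ j, ∀ u ∈ D j, u ≠ 0 → ∃ v ∈ D j, sympForm d F u v ≠ 0) ∧
    (∀ j j', j ≠ j' → ∀ u ∈ D j, ∀ v ∈ D j', sympForm d F u v = 0))}

/-- An isometry maps orthogonal decompositions to orthogonal decompositions. -/
theorem map_spDec (φ : (Fin d ⊕ Fin d → F) ≃ₗ[F] (Fin d ⊕ Fin d → F))
    (hφ : ∀ u v, sympForm d F (φ u) (φ v) = sympForm d F u v) (D : SpDec F d t a) :
    (IsMDecomposition a (fun j => (D.1 j).map φ.toLinearMap) ∧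
      (∀ j, ∀ u ∈ (D.1 j).map φ.toLinearMap, u ≠ 0 →
        ∃ v ∈ (D.1 j).map φ.toLinearMap, sympForm d F u v ≠ 0) ∧
      (∀ j j', j ≠ j' → ∀ u ∈ (D.1 j).map φ.toLinearMap, ∀ v ∈ (D.1 j').map φ.toLinearMap,
        sympForm d F u v = 0)) := by
  obtain ⟨D, hD, hN, hO⟩ := D
  refine ⟨⟨hD.two_le, hD.pos, fun i => ?_, ?_, ?_⟩, ?_, ?_⟩
  · rw [LinearEquiv.finrank_map_eq]
    exact hD.finrank_eq i
  · exact hD.indep.map_orderIso (Submodule.orderIsoMapComap φ)
  · have h1 : (⨆ i, (D i).map φ.toLinearMap) = (⨆ i, D i).map φ.toLinearMap := by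
      rw [Submodule.map_iSup]
    rw [h1, hD.iSup_eq_top, Submodule.map_top, LinearEquiv.range]
  · rintro j _ ⟨u, hu, rfl⟩ hne
    have hu0 : u ≠ 0 := by
      rintro rfl
      exact hne (map_zero _)
    obtain ⟨v, hv, hv0⟩ := hN j u hu hu0
    refine ⟨φ v, ⟨v, hv, rfl⟩, ?_⟩
    change sympForm d F (φ u) (φ v) ≠ 0
    rw [hφ]
    exact hv0
  · rintro j j' hjj _ ⟨u, hu, rfl⟩ _ ⟨v, hv, rfl⟩
    change sympForm d F (φ u) (φ v) = 0
    rw [hφ]
    exact hO j j' hjj u hu v hv

/-- The action of the symplectic group on orthogonal decompositions. -/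
@[instance_reducible] noncomputable def spAct :
    MulAction (Matrix.symplecticGroup (Fin d) F) (SpDec F d t a) where
  smul g D := ⟨fun j => (D.1 j).map (spLin g).toLinearMap,
    map_spDec (spLin g) (fun u v => (mem_symplecticGroup_iff _).1 g.2 u v) D⟩
  one_smul D := Subtype.ext (funext fun j => by
    change (D.1 j).map (spLin (1 : Matrix.symplecticGroup (Fin d) F)).toLinearMap = D.1 j
    have h1 : (spLin (1 : Matrix.symplecticGroup (Fin d) F)).toLinearMap = LinearMap.id := by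
      apply LinearMap.ext
      intro x
      change ((1 : Matrix.symplecticGroup (Fin d) F) : Matrix _ _ F) *ᵥ x = x
      simp
    rw [h1, Submodule.map_id])
  mul_smul g h D := Subtype.ext (funext fun j => by
    change (D.1 j).map (spLin (g * h)).toLinearMap =
      ((D.1 j).map (spLin h).toLinearMap).map (spLin g).toLinearMap
    have h1 : (spLin (g * h)).toLinearMap =
        (spLin g).toLinearMap.comp (spLin h).toLinearMap := by
      apply LinearMap.ext
      intro x
      change ((g * h : Matrix.symplecticGroup (Fin d) F) : Matrix _ _ F) *ᵥ x =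
        g.1 *ᵥ (h.1 *ᵥ x)
      rw [Matrix.mulVec_mulVec]
      rfl
    rw [h1, Submodule.map_comp])

/-- The symmetric group acts freely on orthogonal decompositions. -/
@[instance_reducible] def permActSp : MulAction (Equiv.Perm (Fin t)) (SpDec F d t a) where
  smul σ D := ⟨fun i => D.1 (σ⁻¹ i), by
    refine ⟨⟨D.2.1.two_le, D.2.1.pos, fun i => D.2.1.finrank_eq _, ?_, ?_⟩, fun j => D.2.2.1 _,
      fun j j' hjj => D.2.2.2 _ _ (fun h => hjj ((σ⁻¹).injective h))⟩
    · exact D.2.1.indep.comp (σ⁻¹).injective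
    · have := (σ⁻¹).iSup_comp (g := D.1)
      rw [← D.2.1.iSup_eq_top, ← this]⟩
  one_smul D := Subtype.ext rfl
  mul_smul g h D := Subtype.ext (funext fun i => by
    change D.1 ((g * h)⁻¹ i) = D.1 (h⁻¹ (g⁻¹ i))
    rw [_root_.mul_inv_rev]
    rfl)

theorem factorial_dvd [Fintype F] : Nat.factorial t ∣ Nat.card (SpDec F d t a) := by
  classical
  letI := permActSp (F := F) (d := d) (t := t) (a := a)
  have hst : ∀ b : SpDec F d t a, MulAction.stabilizer (Equiv.Perm (Fin t)) b = ⊥ := by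
    intro b
    rw [eq_bot_iff]
    intro σ hσ
    have h1 : σ • b = b := hσ
    have h2 : ∀ i, b.1 (σ⁻¹ i) = b.1 i := fun i => congrFun (congrArg Subtype.val h1) i
    have hinj : Function.Injective b.1 := by
      apply b.2.1.indep.injective
      intro i hi
      have := b.2.1.finrank_eq i
      rw [hi, finrank_bot] at this
      have h3 := b.2.1.pos
      omega
    have h3 : σ⁻¹ = 1 := by
      ext i
      rw [hinj (h2 i)]
      rfl
    rw [Subgroup.mem_bot]
    exact inv_eq_one.mp h3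
  have e := MulAction.selfEquivOrbitsQuotientProd (G := Equiv.Perm (Fin t))
    (X := SpDec F d t a) hst
  rw [Nat.card_congr e, Nat.card_prod]
  have h4 : Nat.card (Equiv.Perm (Fin t)) = Nat.factorial t := by
    rw [Nat.card_eq_fintype_card, Fintype.card_perm, Fintype.card_fin]
  rw [h4]
  exact dvd_mul_left _ _

/-- Two orthogonal decompositions are conjugate under the symplectic group. -/
theorem exists_isometry [Fintype F] {k : ℕ} (hk : a = 2 * k) (D D' : SpDec F d t a) :
    ∃ φ : (Fin d ⊕ Fin d → F) ≃ₗ[F] (Fin d ⊕ Fin d → F),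
      (∀ u v, sympForm d F (φ u) (φ v) = sympForm d F u v) ∧
      ∀ j, (D.1 j).map φ.toLinearMap = D'.1 j := by
  classical
  have key : ∀ E : SpDec F d t a, ∀ j, ∃ e : (Fin k ⊕ Fin k → F) ≃ₗ[F] (E.1 j),
      ∀ x y, sympForm d F (e x : Fin d ⊕ Fin d → F) (e y : Fin d ⊕ Fin d → F) = sympForm k F x y := by
    intro E j
    have hrefl : ((sympBilin d F).restrict (E.1 j)).IsRefl :=
      (Cfsg.Agent.Lib.Classical.AltCount.restrict_isAlt sympBilin_isAlt _).isRefl
    have hnd : ((sympBilin d F).restrict (E.1 j)).Nondegenerate := by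
      refine (LinearMap.IsRefl.nondegenerate_iff_separatingLeft hrefl).2 ?_
      intro x hx
      apply Subtype.ext
      have h1 := (nd_std_iff (E.1 j)).mp (E.2.2.1 j)
      exact h1 x.1 x.2 (fun v hv => hx ⟨v, hv⟩)
    have hcard : Nat.card (E.1 j) = (Nat.card F) ^ (2 * k) := by
      rw [Module.natCard_eq_pow_finrank (K := F), E.2.1.finrank_eq j, hk]
    obtain ⟨e, he⟩ := Cfsg.Agent.Lib.SylowLarge.SpForm.exists_form_equiv rfl
      ((sympBilin d F).restrict (E.1 j))
      (Cfsg.Agent.Lib.Classical.AltCount.restrict_isAlt sympBilin_isAlt _) hnd k hcard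
    exact ⟨e, he⟩
  choose e he using key D
  choose e' he' using key D'
  have hint := DirectSum.isInternal_submodule_of_iSupIndep_of_iSup_eq_top D.2.1.indep
    D.2.1.iSup_eq_top
  have hint' := DirectSum.isInternal_submodule_of_iSupIndep_of_iSup_eq_top D'.2.1.indep
    D'.2.1.iSup_eq_top
  let std := Pi.basisFun F (Fin k ⊕ Fin k)
  let bs : ∀ j, Basis (Fin k ⊕ Fin k) F (D.1 j) := fun j => std.map (e j)
  let bs' : ∀ j, Basis (Fin k ⊕ Fin k) F (D'.1 j) := fun j => std.map (e' j)
  let B := hint.collectedBasis bs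
  let B' := hint'.collectedBasis bs'
  have hB : ∀ j m, B ⟨j, m⟩ = (e j (std m) : Fin d ⊕ Fin d → F) := by
    intro j m
    simp only [B]
    rw [DirectSum.IsInternal.collectedBasis_coe]
    simp [bs]
  have hB' : ∀ j m, B' ⟨j, m⟩ = (e' j (std m) : Fin d ⊕ Fin d → F) := by
    intro j m
    simp only [B']
    rw [DirectSum.IsInternal.collectedBasis_coe]
    simp [bs']
  let φ : (Fin d ⊕ Fin d → F) ≃ₗ[F] (Fin d ⊕ Fin d → F) := B.equiv B' (Equiv.refl _)
  have hφB : ∀ x, φ (B x) = B' x := fun x => by simp [φ]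
  have hform : ∀ x y, sympForm d F (B' x) (B' y) = sympForm d F (B x) (B y) := by
    rintro ⟨j, m⟩ ⟨j', m'⟩
    by_cases hjj : j = j'
    · subst hjj
      rw [hB, hB, hB', hB', he, he']
    · rw [hB, hB, hB', hB', D.2.2.2 j j' hjj _ (e j _).2 _ (e j' _).2,
        D'.2.2.2 j j' hjj _ (e' j _).2 _ (e' j' _).2]
  have hiso : ∀ u v, sympForm d F (φ u) (φ v) = sympForm d F u v := by
    have h1 : (sympBilin d F).compl₁₂ φ.toLinearMap φ.toLinearMap = sympBilin d F := by
      apply LinearMap.ext_basis B B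
      intro x y
      change sympForm d F (φ (B x)) (φ (B y)) = sympForm d F (B x) (B y)
      rw [hφB, hφB]
      exact hform x y
    intro u v
    exact LinearMap.congr_fun (LinearMap.congr_fun h1 u) v
  refine ⟨φ, hiso, fun j => ?_⟩
  apply Submodule.eq_of_le_of_finrank_eq
  · rintro _ ⟨v, hv, rfl⟩
    have h2 : v = ∑ m, (bs j).repr ⟨v, hv⟩ m • ((bs j m : D.1 j) : Fin d ⊕ Fin d → F) := by
      have h0 := congrArg Subtype.val ((bs j).sum_repr ⟨v, hv⟩)
      rw [Submodule.coe_sum] at h0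
      simpa only [Submodule.coe_smul] using h0.symm
    rw [h2, map_sum]
    refine Submodule.sum_mem _ fun m _ => ?_
    rw [map_smul]
    refine Submodule.smul_mem _ _ ?_
    have h3 : ((bs j m : D.1 j) : Fin d ⊕ Fin d → F) = B ⟨j, m⟩ := by
      rw [hB]
      simp [bs]
    have h4 : φ.toLinearMap (B ⟨j, m⟩) = B' ⟨j, m⟩ := hφB _
    rw [h3, h4, hB']
    exact (e' j _).2
  · rw [LinearEquiv.finrank_map_eq, D.2.1.finrank_eq, D'.2.1.finrank_eq]

/-- Orthogonal decompositions exist. -/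
theorem exists_spDec [Fintype F] {k : ℕ} (hk : a = 2 * k) (hk0 : 0 < k) (hat : 2 * d = a * t)
    (ht : 2 ≤ t) : Nonempty (SpDec F d t a) := by
  classical
  have hB := fm_std (F := F) (d := d)
  have hA := alt_std (F := F) (d := d)
  have hfin : finrank F (Fin d ⊕ Fin d → F) = 2 * d := finrank_triv d
  have hT : Iso (fun u v : Fin d ⊕ Fin d → F => sympForm d F u v) (1 : End F (Fin d ⊕ Fin d → F)) :=
    fun u v => rfl
  have hinj : Function.Injective (1 : End F (Fin d ⊕ Fin d → F)) := fun u v h => h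
  obtain ⟨D, -, h2, -, h4, h5⟩ := orth_decomp hB hT hinj (a := a) (s₀ := t)
    (fun U s hs1 hs2 hU hUi hd => by
      obtain ⟨W, h1, h2, h3, h4⟩ := ndcap hB hT hinj (d := 2) (by norm_num) (U₀ := ⊤)
        (fun U' _ hU' hU'i hpos => by
          obtain ⟨C, h1, h2, h3⟩ := exists_plane hB hA hU' hpos
          exact ⟨C, h1, h2, fun v hv => hv, h3⟩) k U le_top hU hUi (by
          rw [hd, ← hk]
          exact Nat.le_mul_of_pos_right a (by omega))
      exact ⟨W, h1, h2, h3, by rw [h4, hk]⟩)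
    t le_rfl ⊤ hB.nd_top (fun _ _ => trivial) (by rw [finrank_top, hfin, hat])
  have hind := indep_of_orth hB h2 h5
  have htop : iSup D = ⊤ := by
    apply Submodule.eq_top_of_finrank_eq
    rw [Cfsg.Agent.Lib.Elusive.Atoms.finrank_iSup_fintype _ hind, hfin, hat]
    simp [h4, mul_comm]
  exact ⟨⟨D, ⟨ht, by omega, h4, hind, htop⟩, fun j => (nd_std_iff (D j)).mpr (h2 j), h5⟩⟩

/-- The number of decompositions divides the order of the group. -/
theorem card_dvd_Sp [Fintype F] {k : ℕ} (hk : a = 2 * k) (hk0 : 0 < k) (hat : 2 * d = a * t)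
    (ht : 2 ≤ t) : Nat.card (SpDec F d t a) ∣ Nat.card (Matrix.symplecticGroup (Fin d) F) := by
  classical
  letI := spAct (F := F) (d := d) (t := t) (a := a)
  haveI : MulAction.IsPretransitive (Matrix.symplecticGroup (Fin d) F) (SpDec F d t a) := by
    refine ⟨fun D D' => ?_⟩
    obtain ⟨φ, hφ, hφD⟩ := exists_isometry hk D D'
    let g : Matrix.symplecticGroup (Fin d) F := ⟨LinearMap.toMatrix' φ.toLinearMap, by
      rw [mem_symplecticGroup_iff]
      intro u v
      rw [LinearMap.toMatrix'_mulVec, LinearMap.toMatrix'_mulVec]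
      exact hφ u v⟩
    refine ⟨g, Subtype.ext (funext fun j => ?_)⟩
    have h1 : (spLin g).toLinearMap = φ.toLinearMap := by
      apply LinearMap.ext
      intro x
      change LinearMap.toMatrix' φ.toLinearMap *ᵥ x = φ x
      rw [LinearMap.toMatrix'_mulVec]
      rfl
    change (D.1 j).map (spLin g).toLinearMap = D'.1 j
    rw [h1]
    exact hφD j
  obtain ⟨D₀⟩ := exists_spDec (F := F) (d := d) hk hk0 hat ht
  rw [← MulAction.index_stabilizer_of_transitive (Matrix.symplecticGroup (Fin d) F) D₀]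
  exact Subgroup.index_dvd_card _

/-- The bound on `c` coming from the hypothesis on the number of decompositions. -/
theorem c_le_of_dvd [Fintype F] {q r : ℕ} (hq : Fintype.card F = q) (hr : r.Prime) (hrF : (r : F) ≠ 0)
    (hrq : ¬ r ∣ q) {i c : ℕ} (hi : i = orderOf (q : ZMod r)) (hc : c = if Even i then i else 2 * i)
    {k : ℕ} (hk : a = 2 * k) (hk0 : 0 < k) (hat : 2 * d = a * t) (ht : 2 ≤ t)
    (h : r ∣ Nat.card (SpDec F d t a) / Nat.factorial t) : c ≤ 2 * d := by
  classical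
  haveI : Fact r.Prime := ⟨hr⟩
  have h1 : r ∣ Nat.card (SpDec F d t a) := h.trans (Nat.div_dvd_of_dvd factorial_dvd)
  have h2 := h1.trans (card_dvd_Sp hk hk0 hat ht)
  obtain ⟨y, hy⟩ := exists_prime_orderOf_dvd_card' (G := Matrix.symplecticGroup (Fin d) F) r h2
  have hfin : finrank F (Fin d ⊕ Fin d → F) = 2 * d := finrank_triv d
  let T : End F (Fin d ⊕ Fin d → F) := Matrix.toLin' (y : Matrix _ _ F)
  have hyr : y ^ r = 1 := by
    rw [← hy]
    exact pow_orderOf_eq_one y
  have hTr : T ^ r = 1 := by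
    have h3 : ((y ^ r : Matrix.symplecticGroup (Fin d) F) : Matrix _ _ F) =
        (1 : F) • (1 : Matrix (Fin d ⊕ Fin d) (Fin d ⊕ Fin d) F) := by
      rw [hyr, one_smul]
      rfl
    rw [pow_std h3, one_smul]
  have hRz : Rz (sympBilin d F) T r := ⟨sympBilin_isAlt, sympBilin_nondegenerate, iso_std y, hTr⟩
  have hB := Rz.fm hRz
  have hT1 : T ≠ 1 := by
    intro hT1
    have hy1 : y = 1 := by
      apply Subtype.ext
      apply (Matrix.toLin' (R := F) (m := Fin d ⊕ Fin d) (n := Fin d ⊕ Fin d)).injective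
      change T = _
      rw [hT1]
      exact Matrix.toLin'_one.symm
    rw [hy1, orderOf_one] at hy
    exact hr.one_lt.ne hy
  have hpos : 0 < finrank F (LinearMap.ker (Polynomial.aeval T (Phi F r))) := by
    rw [Nat.pos_iff_ne_zero]
    intro h0
    have hsplit := (split01 hrF hTr (U := ⊤) (fun v _ => trivial)).2
    rw [top_inf_eq, top_inf_eq, h0, add_zero, finrank_top] at hsplit
    have h3 : LinearMap.ker (Polynomial.aeval T (X - 1 : F[X])) = ⊤ :=
      Submodule.eq_top_of_finrank_eq hsplit.symm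
    apply hT1
    apply LinearMap.ext
    intro v
    have h4 : v ∈ LinearMap.ker (Polynomial.aeval T (X - 1 : F[X])) := by
      rw [h3]
      trivial
    exact mem_fix.mp h4
  have hnd1 := nd1 hB hRz.iso hrF hRz.pow hB.nd_top (U := ⊤) (fun v _ => trivial)
  rw [top_inf_eq] at hnd1
  have hdvd := dvd_ker hRz hq hr hrF hrq hi hc (U := LinearMap.ker (Polynomial.aeval T (Phi F r)))
    le_rfl hnd1 (inv_ker T _)
  have h5 := Nat.le_of_dvd hpos hdvd
  have h6 : finrank F (LinearMap.ker (Polynomial.aeval T (Phi F r))) ≤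
      finrank F (Fin d ⊕ Fin d → F) := Submodule.finrank_le _
  omega

end Cfsg.Agent.Lib.ElusDec.SpCountD
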