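import Cfsg.Agent.Lib.ElusDec.SpOrth

/-!
# Orthogonal decompositions permuted by elements of odd prime order: the negative direction
-/

set_option autoImplicit false
set_option linter.unusedSectionVars false
set_option linter.style.haveILetI false
set_option linter.unusedVariables false

open Polynomial Module Matrix

universe u

namespace Cfsg.Agent.Lib.ElusDec.SpNegD

open Cfsg Cfsg.Agent.Lib.ElusL.Basic Cfsg.Agent.Lib.ElusL.Flag Cfsg.Agent.Lib.ElusL.Cyc
  Cfsg.Agent.Lib.ElusL.Pos Cfsg.Agent.Lib.ElusF.Form Cfsg.Agent.Lib.ElusF.Step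
  Cfsg.Agent.Lib.ElusF.Split Cfsg.Agent.Lib.ElusF.SpModel Cfsg.Agent.Lib.ElusF.SpNeg
  Cfsg.Agent.Lib.ElusF.SpPos Cfsg.Agent.Lib.ElusF.SpPos2 Cfsg.Agent.Lib.ElusF.SpTwo
  Cfsg.Agent.Lib.ElusF.SpMain Cfsg.Agent.Lib.Classical.SympForm Cfsg.Agent.Lib.ElusF.SpNd
  Cfsg.Agent.Lib.ElusF.SpNdThm Cfsg.Agent.Lib.ElusDec.Cycle Cfsg.Agent.Lib.ElusDec.SpOrth

variable {F : Type u} [Field F] [Fintype F] {q r : ℕ} {V : Type*} [AddCommGroup V] [Module F V]
  [FiniteDimensional F V]

/-- The order `c` divides the dimension of fixed-point-free nondegenerate invariant subspaces. -/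
theorem dvd_ker {Bf : LinearMap.BilinForm F V} {T : End F V} (h : Rz Bf T r)
    (hq : Fintype.card F = q) (hr : r.Prime) (hrF : (r : F) ≠ 0) (hrq : ¬ r ∣ q)
    {i c : ℕ} (hi : i = orderOf (q : ZMod r)) (hc : c = if Even i then i else 2 * i)
    {U : Submodule F V} (hU₁ : U ≤ LinearMap.ker (Polynomial.aeval T (Phi F r)))
    (hU : Nd (fun u v => Bf u v) U) (hUi : Inv T U) : c ∣ finrank F U := by
  by_cases hev : Even i
  · rw [hc, if_pos hev]
    have h1 := dvd_finrank_inf (T := T) (W := U) (d := i) (Phi_ne_zero (F := F) hr)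
      (fun g hg hgd => by rw [hi]; exact natDegree_factor hq hr hrF hrq hg hgd) hUi
    rwa [inf_eq_left.mpr hU₁] at h1
  · rw [hc, if_neg hev]
    have hodd : Odd (orderOf (q : ZMod r)) := by
      rw [← hi]
      exact Nat.not_even_iff_odd.mp hev
    rw [hi]
    exact two_mul_dvd (Rz.fm h) h.alt h.iso h.pow hq hr hrF hrq hodd _ _ rfl hU₁ hU hUi

theorem c_pos (hr : r.Prime) (hrq : ¬ r ∣ q) {i c : ℕ} (hi : i = orderOf (q : ZMod r))
    (hc : c = if Even i then i else 2 * i) : 0 < c := by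
  have hipos : 0 < i := by
    rw [hi]
    exact ord_pos hr hrq
  rw [hc]
  split_ifs <;> omega

/-- The order `c` is at most `r - 1`. -/
theorem c_le (hr : r.Prime) (hr2 : r ≠ 2) (hrq : ¬ r ∣ q) {i c : ℕ}
    (hi : i = orderOf (q : ZMod r)) (hc : c = if Even i then i else 2 * i) : c ≤ r - 1 := by
  haveI : Fact r.Prime := ⟨hr⟩
  have h1 : i ∣ r - 1 := by
    rw [hi]
    apply ZMod.orderOf_dvd_card_sub_one
    exact natCast_q_ne_zero hrq
  have hr1 : 0 < r - 1 := by
    have := hr.two_le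
    omega
  by_cases hev : Even i
  · rw [hc, if_pos hev]
    exact Nat.le_of_dvd hr1 h1
  · rw [hc, if_neg hev]
    have hrodd : Odd r := hr.odd_of_ne_two hr2
    have h2 : 2 ∣ r - 1 := by
      obtain ⟨m, hm⟩ := hrodd
      exact ⟨m, by omega⟩
    have hcop : Nat.Coprime 2 i := (Nat.not_even_iff_odd.mp hev).coprime_two_left
    exact Nat.le_of_dvd hr1 (hcop.mul_dvd_of_dvd_of_dvd h2 h1)

/-- Large `c`: no decomposition is permuted. -/
theorem neg_case2 {Bf : LinearMap.BilinForm F V} {T : End F V} (h : Rz Bf T r)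
    (hq : Fintype.card F = q) (hr : r.Prime) (hr2 : r ≠ 2) (hrF : (r : F) ≠ 0) (hrq : ¬ r ∣ q)
    {i c : ℕ} (hi : i = orderOf (q : ZMod r)) (hc : c = if Even i then i else 2 * i) {a t : ℕ}
    (hac : a < c) (ha2 : 2 ≤ a) (hcV : c ≤ finrank F V) (hA : Dk T (X - 1 : F[X]) = finrank F V - c)
    (D : Fin t → Submodule F V) (hd : ∀ j, finrank F (D j) = a) (hind : iSupIndep D)
    (htop : iSup D = ⊤) (hN : ∀ j, Nd (fun u v => Bf u v) (D j)) (σ : Equiv.Perm (Fin t))
    (hσ : ∀ j, (D j).map T = D (σ j)) : False := by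
  have hcpos := c_pos hr hrq hi hc
  have hcr := c_le hr hr2 hrq hi hc
  have hB := Rz.fm h
  have hsplit := (split01 hrF h.pow (U := ⊤) (fun v _ => trivial)).2
  rw [top_inf_eq, top_inf_eq, finrank_top] at hsplit
  unfold Dk at hA
  have hBd : finrank F (LinearMap.ker (Polynomial.aeval T (Phi F r))) = c := by omega
  have hinjD : Function.Injective D := by
    apply hind.injective
    intro j hj
    have := hd j
    rw [hj, finrank_bot] at this
    omega
  by_cases hfix : ∀ j, σ j = j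
  · have hinv : ∀ j, Inv T (D j) := by
      intro j v hv
      have h1 := hσ j
      rw [hfix] at h1
      rw [← h1]
      exact Submodule.mem_map_of_mem hv
    have hle : ∀ j, D j ≤ LinearMap.ker (Polynomial.aeval T (X - 1 : F[X])) := by
      intro j
      have h1 := (split01 hrF h.pow (hinv j)).2
      have h2 := dvd_ker h hq hr hrF hrq hi hc (U := D j ⊓ LinearMap.ker (Polynomial.aeval T (Phi F r)))
        inf_le_right (nd1 hB h.iso hrF h.pow (hN j) (hinv j)) (hB.inv_inf (hinv j) (inv_ker T _))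
      have h3 : finrank F (D j ⊓ LinearMap.ker (Polynomial.aeval T (Phi F r)) :
          Submodule F V) ≤ a := by
        rw [← hd j]
        exact Submodule.finrank_mono inf_le_left
      have h4 : finrank F (D j ⊓ LinearMap.ker (Polynomial.aeval T (Phi F r)) :
          Submodule F V) = 0 := Nat.eq_zero_of_dvd_of_lt h2 (by omega)
      rw [h4, add_zero] at h1
      have h5 : D j ⊓ LinearMap.ker (Polynomial.aeval T (X - 1 : F[X])) = D j :=
        Submodule.eq_of_le_of_finrank_eq inf_le_left h1.symm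
      exact inf_eq_left.mp h5
    have h6 : (⊤ : Submodule F V) ≤ LinearMap.ker (Polynomial.aeval T (X - 1 : F[X])) := by
      rw [← htop]
      exact iSup_le hle
    have h7 := Submodule.finrank_mono h6
    rw [finrank_top, hA] at h7
    omega
  · push Not at hfix
    obtain ⟨j, hj⟩ := hfix
    have h1 := le_finrank_B hr h.pow hind hσ hinjD hj
    rw [hd, hBd] at h1
    have hr1 : 0 < r - 1 := by have := hr.two_le; omega
    have h2 : (r - 1) * 2 ≤ (r - 1) * a := Nat.mul_le_mul_left _ ha2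
    omega

/-- Small `c`: the decomposition determines the residue. -/
theorem neg_case1 {Bf : LinearMap.BilinForm F V} {T : End F V} (h : Rz Bf T r)
    (hq : Fintype.card F = q) (hr : r.Prime) (hrF : (r : F) ≠ 0) (hrq : ¬ r ∣ q)
    {i c : ℕ} (hi : i = orderOf (q : ZMod r)) (hc : c = if Even i then i else 2 * i) {a t n : ℕ}
    (hn : n = a * t) (hca : c ≤ a) (hA : Dk T (X - 1 : F[X]) = n % c)
    (D : Fin t → Submodule F V) (hd : ∀ j, finrank F (D j) = a) (hind : iSupIndep D)
    (hN : ∀ j, Nd (fun u v => Bf u v) (D j)) (σ : Equiv.Perm (Fin t))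
    (hσ : ∀ j, (D j).map T = D (σ j)) : n % c = t * (a % c) := by
  have hcpos := c_pos hr hrq hi hc
  have hB := Rz.fm h
  unfold Dk at hA
  have hinjD : Function.Injective D := by
    apply hind.injective
    intro j hj
    have := hd j
    rw [hj, finrank_bot] at this
    omega
  have hfix : ∀ j, σ j = j := by
    intro j
    by_contra hj
    have h1 := le_finrank_A hr h.pow hind hσ hinjD hj
    rw [hd, hA] at h1
    have := Nat.mod_lt n hcpos
    omega
  have hinv : ∀ j, Inv T (D j) := by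
    intro j v hv
    have h1 := hσ j
    rw [hfix] at h1
    rw [← h1]
    exact Submodule.mem_map_of_mem hv
  have hbound : ∀ j, a % c ≤
      finrank F (D j ⊓ LinearMap.ker (Polynomial.aeval T (X - 1 : F[X])) : Submodule F V) := by
    intro j
    have h1 := (split01 hrF h.pow (hinv j)).2
    obtain ⟨u, hu⟩ := dvd_ker h hq hr hrF hrq hi hc
      (U := D j ⊓ LinearMap.ker (Polynomial.aeval T (Phi F r)))
      inf_le_right (nd1 hB h.iso hrF h.pow (hN j) (hinv j)) (hB.inv_inf (hinv j) (inv_ker T _))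
    rw [hu, hd j] at h1
    rw [h1, Nat.add_mul_mod_self_left]
    exact Nat.mod_le _ _
  have hsum := sum_finrank_inf_le hind (LinearMap.ker (Polynomial.aeval T (X - 1 : F[X])))
  have h2 : t * (a % c) ≤ n % c := by
    rw [← hA]
    refine le_trans ?_ hsum
    calc t * (a % c) = ∑ _j : Fin t, a % c := by simp
      _ ≤ _ := Finset.sum_le_sum fun j _ => hbound j
  have h3 : n % c = (t * (a % c)) % c := by
    rw [hn, mul_comm a t, Nat.mul_mod, Nat.mul_mod t (a % c), Nat.mod_mod]
  rw [h3]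
  exact Nat.mod_eq_of_lt (lt_of_le_of_lt h2 (Nat.mod_lt n hcpos))

/-- Models with a prescribed number of blocks. -/
theorem exists_model_w (hq : Fintype.card F = q) (hr : r.Prime) (hr2 : r ≠ 2) (hrF : (r : F) ≠ 0)
    (hrq : ¬ r ∣ q) {i c : ℕ} (hi : i = orderOf (q : ZMod r))
    (hc : c = if Even i then i else 2 * i) {d w : ℕ} (hw1 : 1 ≤ w) (hw : w * c ≤ 2 * d) :
    ∃ (V : Type u) (_ : AddCommGroup V) (_ : Module F V) (_ : FiniteDimensional F V)
      (B : LinearMap.BilinForm F V) (T : End F V), Rz B T r ∧ finrank F V = 2 * d ∧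
      Dk T (X - 1 : F[X]) = 2 * d - w * c ∧ ∀ z : F, T ≠ z • 1 := by
  classical
  obtain ⟨S, hS, hprod, hcard⟩ := exists_factors hq hr hrF hrq
  have hipos : 0 < i := by
    rw [hi]
    exact ord_pos hr hrq
  have hrpos := hr.two_le
  have hSne : S.Nonempty := by
    rw [← Finset.card_pos]
    rcases Nat.eq_zero_or_pos S.card with h0 | h0
    · rw [h0, zero_mul] at hcard
      omega
    · exact h0
  obtain ⟨g, hg⟩ := hSne
  by_cases hev : Even i
  · have hci : c = i := by rw [hc, if_pos hev]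
    obtain ⟨e, he⟩ : ∃ e, i = 2 * e := by
      obtain ⟨e, he⟩ := hev
      exact ⟨e, by omega⟩
    have hepos : 0 < e := by omega
    have hord : orderOf (q : ZMod r) = 2 * e := by rw [← hi, he]
    rw [hord] at hS
    have hrq' := dvd_pow_add_one (q := q) hr hord hepos
    have hwc : w * c = 2 * (e * w) := by
      rw [hci, he]
      ring
    obtain ⟨V, i1, i2, i3, B, T, hRz, hf, hD, -, hNS⟩ := model_even hq hepos.ne' hrq' (d - e * w)
      (List.replicate w g) (by
        intro g' hg'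
        rw [List.eq_of_mem_replicate hg']
        exact hS g hg)
    refine ⟨V, i1, i2, i3, B, T, hRz, ?_, ?_, hNS (by
      intro h0
      have := congrArg List.length h0
      simp at this
      omega)⟩
    · rw [hf, List.length_replicate]
      rw [hwc] at hw
      have : 2 * e * w = 2 * (e * w) := by ring
      omega
    · rw [hD, hwc]
      omega
  · have hci : c = 2 * i := by rw [hc, if_neg hev]
    rw [← hi] at hS
    obtain ⟨hgi, -, hgr, hg1, hgd⟩ := hS g hg
    have hwc : w * c = 2 * (i * w) := by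
      rw [hci]
      ring
    obtain ⟨V, i1, i2, i3, B, T, hRz, hf, hD, hNS⟩ := model_odd hq hgi hgr hg1
      (hr.odd_of_ne_two hr2) (d - i * w) w
    refine ⟨V, i1, i2, i3, B, T, hRz, ?_, ?_, hNS (by omega)⟩
    · rw [hf, hgd]
      rw [hwc] at hw
      have : 2 * i * w = 2 * (i * w) := by ring
      omega
    · rw [hD, hwc]
      omega

/-- Transport of the hypothesis to a model. -/
theorem transport {d t a : ℕ} {V : Type*} [AddCommGroup V] [Module F V] [FiniteDimensional F V]
    {B : LinearMap.BilinForm F V} {T : End F V} (h : Rz B T r) (hdim : finrank F V = 2 * d)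
    (hNS : ∀ z : F, T ≠ z • 1)
    (hL : ∀ x : ↥(Matrix.symplecticGroup (Fin d) F),
      (∃ z : F, ((x ^ r : ↥(Matrix.symplecticGroup (Fin d) F)) : Matrix (Fin d ⊕ Fin d) (Fin d ⊕ Fin d) F) = z • (1 : Matrix (Fin d ⊕ Fin d) (Fin d ⊕ Fin d) F)) →
      (∀ z : F, (x : Matrix (Fin d ⊕ Fin d) (Fin d ⊕ Fin d) F) ≠ z • (1 : Matrix (Fin d ⊕ Fin d) (Fin d ⊕ Fin d) F)) →
      ∃ D : Fin t → Submodule F (Fin d ⊕ Fin d → F), (Cfsg.Geo.IsMDecomposition a D ∧ (∀ j, ∀ u ∈ D j, u ≠ 0 → ∃ v ∈ D j, Cfsg.sympForm d F u v ≠ 0) ∧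
          (∀ j j', j ≠ j' → ∀ u ∈ D j, ∀ v ∈ D j', Cfsg.sympForm d F u v = 0)) ∧
        ∃ σ : Equiv.Perm (Fin t), ∀ j, (D j).map (Matrix.toLin' (x : Matrix (Fin d ⊕ Fin d) (Fin d ⊕ Fin d) F)) = D (σ j)) :
    ∃ D : Fin t → Submodule F V, (∀ j, finrank F (D j) = a) ∧ iSupIndep D ∧ iSup D = ⊤ ∧
      (∀ j, Nd (fun u v => B u v) (D j)) ∧ ∃ σ : Equiv.Perm (Fin t), ∀ j, (D j).map T = D (σ j) := by
  obtain ⟨e, x, he, hx, hpow⟩ := exists_conj (d := d) h hdim
  obtain ⟨D', ⟨hD', hN', -⟩, σ, hσ⟩ := hL x ⟨1, hpow⟩ (by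
    intro z hz
    apply hNS z
    apply LinearMap.ext
    intro v
    obtain ⟨w, rfl⟩ := e.surjective v
    rw [← hx, hz, Matrix.smul_mulVec, Matrix.one_mulVec, map_smul]
    rfl)
  refine ⟨fun j => (D' j).map e.toLinearMap, ?_, ?_, ?_, ?_, σ, ?_⟩
  · intro j
    rw [LinearEquiv.finrank_map_eq]
    exact hD'.finrank_eq j
  · exact hD'.indep.map_orderIso (Submodule.orderIsoMapComap e)
  · have h1 : (⨆ j, (D' j).map e.toLinearMap) = (⨆ j, D' j).map e.toLinearMap := by
      rw [Submodule.map_iSup]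
    rw [h1, hD'.iSup_eq_top, Submodule.map_top, LinearEquiv.range]
  · rintro j _ ⟨u, hu, rfl⟩ hh
    have h1 : u = 0 := (nd_std_iff (D' j)).mp (hN' j) u hu (fun v hv => by
      have := hh (e v) ⟨v, hv, rfl⟩
      change B (e u) (e v) = 0 at this
      rw [he] at this
      exact this)
    rw [h1]
    simp
  · intro j
    have h1 : T.comp e.toLinearMap = e.toLinearMap.comp
        (Matrix.toLin' (x : Matrix (Fin d ⊕ Fin d) (Fin d ⊕ Fin d) F)) := by
      apply LinearMap.ext
      intro v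
      exact (hx v).symm
    rw [← Submodule.map_comp, h1, Submodule.map_comp, hσ]

end Cfsg.Agent.Lib.ElusDec.SpNegD
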