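import Cfsg.Agent.Lib.ElusDec.Cycle
import Cfsg.Agent.Lib.ElusF.SpNdThm

/-!
# Orthogonal decompositions permuted by elements of odd prime order: the abstract part
-/

set_option autoImplicit false
set_option linter.unusedSectionVars false
set_option linter.style.haveILetI false
set_option linter.unusedVariables false

open Polynomial Module Matrix

universe u

namespace Cfsg.Agent.Lib.ElusDec.SpOrth

open Cfsg Cfsg.Agent.Lib.ElusL.Basic Cfsg.Agent.Lib.ElusL.Flag Cfsg.Agent.Lib.ElusL.Cyc
  Cfsg.Agent.Lib.ElusL.Pos Cfsg.Agent.Lib.ElusF.Form Cfsg.Agent.Lib.ElusF.Step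
  Cfsg.Agent.Lib.ElusF.Split Cfsg.Agent.Lib.ElusF.SpModel Cfsg.Agent.Lib.ElusF.SpNeg
  Cfsg.Agent.Lib.ElusF.SpPos Cfsg.Agent.Lib.ElusF.SpPos2 Cfsg.Agent.Lib.ElusF.SpTwo
  Cfsg.Agent.Lib.ElusF.SpMain Cfsg.Agent.Lib.Classical.SympForm Cfsg.Agent.Lib.ElusF.SpNd
  Cfsg.Agent.Lib.ElusDec.Cycle

section Abstract

variable {F : Type*} [Field F] {V : Type*} [AddCommGroup V] [Module F V] [FiniteDimensional F V]
  {σ : F →+* F} {ε : F} {B : V → V → F}

/-- Orthogonal nondegenerate subspaces are independent. -/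
theorem indep_of_orth (hB : Fm σ ε B) {ι : Type*} {D : ι → Submodule F V} (hN : ∀ j, Nd B (D j))
    (horth : ∀ j j', j ≠ j' → ∀ u ∈ D j, ∀ v ∈ D j', B u v = 0) : iSupIndep D := by
  rw [iSupIndep_def]
  intro j
  have hle : (⨆ (k : ι) (_ : k ≠ j), D k) ≤ hB.orth (D j) := by
    refine iSup₂_le fun k hk v hv w hw => ?_
    exact horth j k hk.symm w hw v hv
  exact Disjoint.mono_right hle ((hB.nd_iff_disjoint).mp (hN j))

/-- Existence of orthogonal decompositions from a step. -/
theorem orth_decomp (hB : Fm σ ε B) {T : End F V} (hT : Iso B T) (hinj : Function.Injective T)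
    {a s₀ : ℕ}
    (hstep : ∀ (U : Submodule F V) (s : ℕ), 1 ≤ s → s ≤ s₀ → Nd B U → Inv T U →
      finrank F U = a * s → ∃ W : Submodule F V, W ≤ U ∧ Nd B W ∧ Inv T W ∧ finrank F W = a) :
    ∀ s, s ≤ s₀ → ∀ U : Submodule F V, Nd B U → Inv T U → finrank F U = a * s →
      ∃ D : Fin s → Submodule F V, (∀ j, D j ≤ U) ∧ (∀ j, Nd B (D j)) ∧ (∀ j, Inv T (D j)) ∧
        (∀ j, finrank F (D j) = a) ∧ ∀ j j', j ≠ j' → ∀ u ∈ D j, ∀ v ∈ D j', B u v = 0 := by
  intro s
  induction s with
  | zero =>
    intro _ U _ _ _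
    exact ⟨fun i => i.elim0, fun i => i.elim0, fun i => i.elim0, fun i => i.elim0, fun i => i.elim0,
      fun i => i.elim0⟩
  | succ s ih =>
    intro hs U hU hUi hd
    obtain ⟨W, hWU, hW, hWi, hWd⟩ := hstep U (s + 1) (by omega) hs hU hUi hd
    have hdim := hB.finrank_inf_orth hU hWU
    have hd' : finrank F (U ⊓ hB.orth W : Submodule F V) = a * s := by
      rw [hd, hWd] at hdim
      have : a * (s + 1) = a * s + a := by ring
      omega
    obtain ⟨D', h1, h2, h3, h4, h5⟩ := ih (by omega) (U ⊓ hB.orth W) (hB.nd_inf_orth hU hW hWU)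
      (hB.inv_inf hUi (hB.inv_orth hT hinj hWi)) hd'
    let D : Fin (s + 1) → Submodule F V := Fin.snoc (α := fun _ => Submodule F V) D' W
    have hDlast : D (Fin.last s) = W := Fin.snoc_last (α := fun _ => Submodule F V) _ _
    have hDcast : ∀ k : Fin s, D k.castSucc = D' k := fun k =>
      Fin.snoc_castSucc (α := fun _ => Submodule F V) _ _ k
    refine ⟨D, ?_, ?_, ?_, ?_, ?_⟩
    · intro j
      refine Fin.lastCases ?_ (fun k => ?_) j
      · rw [hDlast]
        exact hWU
      · rw [hDcast]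
        exact (h1 k).trans inf_le_left
    · intro j
      refine Fin.lastCases ?_ (fun k => ?_) j
      · rw [hDlast]
        exact hW
      · rw [hDcast]
        exact h2 k
    · intro j
      refine Fin.lastCases ?_ (fun k => ?_) j
      · rw [hDlast]
        exact hWi
      · rw [hDcast]
        exact h3 k
    · intro j
      refine Fin.lastCases ?_ (fun k => ?_) j
      · rw [hDlast]
        exact hWd
      · rw [hDcast]
        exact h4 k
    · intro j j'
      refine Fin.lastCases ?_ (fun k => ?_) j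
      · refine Fin.lastCases ?_ (fun k' => ?_) j'
        · intro h
          exact absurd rfl h
        · intro _ u hu v hv
          rw [hDlast] at hu
          rw [hDcast] at hv
          exact (h1 k' hv).2 u hu
      · refine Fin.lastCases ?_ (fun k' => ?_) j'
        · intro _ u hu v hv
          rw [hDcast] at hu
          rw [hDlast] at hv
          exact hB.mem_orth'.mp (h1 k hu).2 v hv
        · intro hne u hu v hv
          rw [hDcast] at hu hv
          exact h5 k k' (fun h => hne (by rw [h])) u hu v hv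

end Abstract

variable {F : Type u} [Field F] [Fintype F] {q r : ℕ} {V : Type*} [AddCommGroup V] [Module F V]
  [FiniteDimensional F V]

/-- Invariant nondegenerate subspaces of every possible dimension. -/
theorem nd_sub {Bf : LinearMap.BilinForm F V} {T : End F V} (h : Rz Bf T r)
    (hq : Fintype.card F = q) (hr : r.Prime) (hr2 : r ≠ 2) (hrF : (r : F) ≠ 0) (hrq : ¬ r ∣ q)
    {i c : ℕ} (hi : i = orderOf (q : ZMod r)) (hc : c = if Even i then i else 2 * i) {m : ℕ}
    (hme : Even m) (hm : m ≤ finrank F V) (hmod : m % c ≤ finrank F V % c) :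
    ∃ W : Submodule F V, Nd (fun u v => Bf u v) W ∧ Inv T W ∧ finrank F W = m := by
  have hB := Rz.fm h
  have hA : ∀ u, (fun u v => Bf u v) u u = 0 := h.alt
  have hS := h.iso
  have hSr := h.pow
  have hnd1 := nd1 hB hS hrF hSr hB.nd_top (U := ⊤) (fun v _ => trivial)
  rw [top_inf_eq] at hnd1
  by_cases hev : Even i
  · have hci : c = i := by rw [hc, if_pos hev]
    rw [hci] at hmod
    obtain ⟨e, he⟩ : ∃ e, i = 2 * e := by
      obtain ⟨e, he⟩ := hev
      exact ⟨e, by omega⟩
    have hipos : 0 < i := by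
      rw [hi]
      exact ord_pos hr hrq
    have hepos : 0 < e := by omega
    have hord : orderOf (q : ZMod r) = 2 * e := by rw [← hi, he]
    rw [he] at hmod
    exact pos_gen hB hA hS hSr hr hrF (c := 2 * e) (by omega) (even_two_mul e) (by
        have := dvd_finrank_inf (T := T) (W := ⊤) (d := 2 * e) (Phi_ne_zero (F := F) hr)
          (fun g hg hgd => by rw [← hord]; exact natDegree_factor hq hr hrF hrq hg hgd)
          (fun v _ => trivial)
        rwa [top_inf_eq] at this)
      (fun U hU₁ hU hUi hpos => step_even h hq hr hr2 hrF hrq hord hepos hU₁ hU hUi hpos)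
      hme hm hmod
  · have hci : c = 2 * i := by rw [hc, if_neg hev]
    rw [hci] at hmod
    have hodd : Odd (orderOf (q : ZMod r)) := by
      rw [← hi]
      exact Nat.not_even_iff_odd.mp hev
    subst hi
    exact pos_gen hB hA hS hSr hr hrF (c := 2 * orderOf (q : ZMod r))
      (by have := hodd.pos; omega) (even_two_mul _)
      (two_mul_dvd hB hA hS hSr hq hr hrF hrq hodd _ _ rfl le_rfl hnd1 (inv_ker _ _))
      (fun U hU₁ hU hUi hpos => step_odd hB hA hS hSr hq hr hrF hrq hodd hU₁ hU hUi hpos)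
      hme hm hmod

/-- The restriction of a model to an invariant nondegenerate subspace. -/
theorem Rz_restrict {Bf : LinearMap.BilinForm F V} {T : End F V} (h : Rz Bf T r)
    {U : Submodule F V} (hU : Nd (fun u v => Bf u v) U) (hUi : Inv T U) :
    Rz (Bf.restrict U) (T.restrict hUi) r where
  alt := Cfsg.Agent.Lib.Classical.AltCount.restrict_isAlt h.alt U
  nondeg := by
    have hrefl : (Bf.restrict U).IsRefl :=
      (Cfsg.Agent.Lib.Classical.AltCount.restrict_isAlt h.alt U).isRefl
    refine (LinearMap.IsRefl.nondegenerate_iff_separatingLeft hrefl).2 ?_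
    intro x hx
    apply Subtype.ext
    exact hU x.1 x.2 (fun v hv => hx ⟨v, hv⟩)
  iso u v := h.iso u v
  pow := by
    apply LinearMap.ext
    intro v
    apply Subtype.ext
    have h1 : (T.restrict hUi) ^ r = (T ^ r).restrict (Module.End.pow_apply_mem_of_forall_mem r hUi) :=
      Module.End.pow_restrict r hUi
    rw [h1, LinearMap.coe_restrict_apply, h.pow]
    rfl

/-- The positive direction in terms of models. -/
theorem pos_main {Bf : LinearMap.BilinForm F V} {T : End F V} (h : Rz Bf T r)
    (hq : Fintype.card F = q) (hr : r.Prime) (hr2 : r ≠ 2) (hrF : (r : F) ≠ 0) (hrq : ¬ r ∣ q)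
    {i c : ℕ} (hi : i = orderOf (q : ZMod r)) (hc : c = if Even i then i else 2 * i) {a t : ℕ}
    (hae : Even a) (hV : finrank F V = a * t) (hlt : t * (a % c) < c) :
    ∃ D : Fin t → Submodule F V, (∀ j, Nd (fun u v => Bf u v) (D j)) ∧ (∀ j, Inv T (D j)) ∧
      (∀ j, finrank F (D j) = a) ∧
      (∀ j j', j ≠ j' → ∀ u ∈ D j, ∀ v ∈ D j', Bf u v = 0) := by
  have hB := Rz.fm h
  have hinj : Function.Injective T :=
    inj_of_pow (c := 1) one_ne_zero hr.ne_zero (by rw [h.pow, one_smul])
  have hcpos : 0 < c := by omega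
  obtain ⟨D, -, h2, h3, h4, h5⟩ := orth_decomp hB h.iso hinj (a := a) (s₀ := t)
    (fun U s hs1 hs2 hU hUi hd => by
      have hRz := Rz_restrict h hU hUi
      have hmod : (a * s) % c = s * (a % c) := by
        have h1 : (a * s) % c = (s * (a % c)) % c := by
          rw [mul_comm a, Nat.mul_mod, Nat.mul_mod s (a % c), Nat.mod_mod]
        rw [h1]
        exact Nat.mod_eq_of_lt (lt_of_le_of_lt (Nat.mul_le_mul_right _ hs2) hlt)
      obtain ⟨W', h1, h2, h3⟩ := nd_sub hRz hq hr hr2 hrF hrq hi hc hae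
        (by rw [hd]; exact Nat.le_mul_of_pos_right a (by omega))
        (by
          rw [hd, hmod]
          exact Nat.le_mul_of_pos_left _ (by omega))
      refine ⟨W'.map U.subtype, ?_, ?_, ?_, ?_⟩
      · rintro _ ⟨v, -, rfl⟩
        exact v.2
      · rintro _ ⟨u, hu, rfl⟩ hh
        have h4 : u = 0 := h1 u hu (fun v hv => hh v ⟨v, hv, rfl⟩)
        rw [h4]
        rfl
      · rintro _ ⟨u, hu, rfl⟩
        exact ⟨_, h2 u hu, rfl⟩
      · rw [← h3]
        exact (LinearEquiv.finrank_eq (Submodule.equivMapOfInjective _ U.injective_subtype _)).symm)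
    t le_rfl ⊤ hB.nd_top (fun _ _ => trivial) (by rw [finrank_top]; exact hV)
  exact ⟨D, h2, h3, h4, h5⟩

end Cfsg.Agent.Lib.ElusDec.SpOrth
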